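import Cfsg.Agent.Lib.Geometric.SUNine.Two.Sylow
import Cfsg.Agent.Lib.Geometric.SUNine.Gen

/-!
The normaliser of the extraspecial group of order `3⁵` is maximal in `SU₉(2)`.
-/

set_option autoImplicit false
set_option linter.unusedSectionVars false

namespace CfsgLib.Geometric.SUNine.Two

open Matrix
open CfsgLib.Geometric.SLNine

variable {F : Type*} [Field F] {σ : F ≃+* F} {w : F}

local notation "Z3" => ZMod 3

variable (h : Four σ w) {M : Subgroup (GL J9 F)}

lemma iterate_odd {p : V9 → V9} {v : V9} (hv : p v = -v) (hadd : ∀ x, p (-x) = - p x) (k : ℕ) :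
    p^[2 * k + 1] v = -v := by
  induction k with
  | zero => simpa using hv
  | succ k ih =>
    rw [show 2 * (k + 1) + 1 = (2 * k + 1) + 1 + 1 from by ring, Function.iterate_succ_apply',
      Function.iterate_succ_apply', ih, hadd, hv, neg_neg, hv]

/-- Odd subgroups of the normaliser normalised by it consist of Pauli matrices and scalars. -/
lemma odd_le (H : Ctx h M) (W : Subgroup M) (hWN : W ≤ NM w M)
    (hnorm : ∀ n ∈ NM w M, ∀ x ∈ W, n * x * n⁻¹ ∈ W) (hodd : Odd (Nat.card W)) :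
    W ≤ RM h M ⊔ ZM h M := by
  have hord : ∀ x ∈ W, ∀ k : ℕ, ∀ v : V9, v ≠ 0 →
      (lab h ((x : M) : GL J9 F))^[k] v ≠ -v := by
    intro x hx k v hv e
    have hN := Subgroup.mem_subgroupOf.1 (hWN hx)
    obtain ⟨j, hj⟩ := hodd
    set y : GL J9 F := ((x : M) : GL J9 F) ^ k with hy
    have hyN : y ∈ N9 w := pow_mem hN k
    have hy1 : y ^ (2 * j + 1) = 1 := by
      rw [hy, ← pow_mul, mul_comm, pow_mul]
      have : ((⟨x, hx⟩ : W) ^ (2 * j + 1)) = 1 := by rw [← hj]; exact pow_card_eq_one'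
      have e' : ((x : M) : GL J9 F) ^ (2 * j + 1) = 1 := by
        simpa using congrArg (fun z : W => ((z : M) : GL J9 F)) this
      rw [e', one_pow]
    have e1 : lab h y v = -v := by rw [hy, lab_pow h hN]; exact e
    have e2 := iterate_odd (p := lab h y) e1 (lab_neg h hyN) j
    rw [← lab_pow h hyN, hy1, lab_one] at e2
    refine hv ?_
    have key : ∀ a : V3, a = -a → a = 0 := by decide
    exact Prod.ext (key _ (congrArg Prod.fst e2)) (key _ (congrArg Prod.snd e2))
  -- the product of a transvection and a conjugate of its inverse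
  have hz : ∀ x ∈ W, ∀ v : V9, v ≠ 0 → ∃ z ∈ W, ∀ y, lab h ((z : M) : GL J9 F) y =
      (y - B9 v y • v) + B9 (lab h (x : GL J9 F) v) (y - B9 v y • v) • lab h (x : GL J9 F) v := by
    intro x hx v hv
    obtain ⟨g, hg, hgl⟩ := exists_transvection h hv
    set n : M := ⟨g, H.norm_le hg⟩
    have hn : n ∈ NM w M := Subgroup.mem_subgroupOf.2 hg.1
    refine ⟨x * (n * x⁻¹ * n⁻¹), W.mul_mem hx (hnorm n hn _ (W.inv_mem hx)), fun y => ?_⟩
    have hxN := Subgroup.mem_subgroupOf.1 (hWN hx)
    have e : ((x * (n * x⁻¹ * n⁻¹) : M) : GL J9 F) = (x : GL J9 F) * g * (x : GL J9 F)⁻¹ * g⁻¹ := by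
      simp only [n, Subgroup.coe_mul, Subgroup.coe_inv]
      group
    have hginv : lab h g⁻¹ y = y - B9 v y • v := by
      have hB : B9 v (y - B9 v y • v) = B9 v y := by
        have hs : B9 v (B9 v y • v) = 0 := by
          simp only [B9, B3, Prod.smul_fst, Prod.smul_snd, smul_eq_mul]; ring
        have := B9_add_right v (y - B9 v y • v) (B9 v y • v)
        rw [sub_add_cancel, hs, add_zero] at this
        exact this.symm
      have : lab h g (y - B9 v y • v) = y := by rw [hgl, hB, sub_add_cancel]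
      conv_lhs => rw [← this]
      exact lab_inv h hg.1 _
    rw [e, lab_mul h ((N9 w).mul_mem ((N9 w).mul_mem hxN hg.1) ((N9 w).inv_mem hxN))
      ((N9 w).inv_mem hg.1), hginv]
    set y' := y - B9 v y • v
    set z := lab h (x : GL J9 F)⁻¹ y' with hzdef
    have hzx : lab h (x : GL J9 F) z = y' := by
      have := lab_inv h ((N9 w).inv_mem hxN) y'
      rwa [inv_inv] at this
    rw [lab_mul h ((N9 w).mul_mem hxN hg.1) ((N9 w).inv_mem hxN), lab_mul h hxN hg.1, ← hzdef, hgl,
      lab_add h hxN, hzx]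
    congr 1
    conv_rhs => rw [← hzx, lab_B9 h hxN]
    have key : ∀ k : Z3, k = 0 ∨ k = 1 ∨ k = -1 := by decide
    rcases key (B9 v z) with hk | hk | hk <;> rw [hk]
    · simp [lab_zero h hxN]
    · simp
    · rw [neg_one_smul, neg_one_smul, lab_neg h hxN]
  have hperp : ∀ x ∈ W, ∀ v : V9, B9 v (lab h (x : GL J9 F) v) = 0 := by
    intro x hx v
    rcases eq_or_ne v 0 with rfl | hv
    · simp [B9, B3]
    by_contra hne
    obtain ⟨z, hz', hzl⟩ := hz x hx v hv
    set u := lab h (x : GL J9 F) v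
    set b := B9 v u
    have hb2 : b * b = 1 := by
      have key : ∀ b : Z3, b ≠ 0 → b * b = 1 := by decide
      exact key b hne
    have hzN := Subgroup.mem_subgroupOf.1 (hWN hz')
    have huv : B9 u v = -b := B9_swap u v
    have e1 : lab h ((z : M) : GL J9 F) v = v + (-b) • u := by
      rw [hzl, B9_self, zero_smul, sub_zero, huv]
    have e2 : lab h ((z : M) : GL J9 F) u = -u + (-b) • v := by
      rw [hzl]
      have hs : B9 u (u - b • v) = b * b := by
        have hu2 : B9 u (b • v) = b * B9 u v := by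
          simp only [B9, B3, Prod.smul_fst, Prod.smul_snd, smul_eq_mul]; ring
        have := B9_add_right u (u - b • v) (b • v)
        rw [sub_add_cancel, B9_self, hu2, huv] at this
        linear_combination -this
      rw [hs, hb2, one_smul]
      have key : ∀ y : V9, y + y = -y := by
        have k3 : ∀ a : V3, a + a = -a := by decide
        intro y
        exact Prod.ext (k3 _) (k3 _)
      rw [neg_smul, ← key u]
      abel
    refine hord z hz' 2 v hv ?_
    show lab h ((z : M) : GL J9 F) (lab h ((z : M) : GL J9 F) v) = -v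
    rw [e1, lab_add h hzN, e1]
    have hsm : lab h ((z : M) : GL J9 F) ((-b) • u) = (-b) • lab h ((z : M) : GL J9 F) u := by
      have key : ∀ k : Z3, k = 0 ∨ k = 1 ∨ k = -1 := by decide
      rcases key (-b) with hk | hk | hk <;> rw [hk]
      · simp [lab_zero h hzN]
      · simp
      · rw [neg_one_smul, neg_one_smul, lab_neg h hzN]
    rw [hsm, e2, smul_add, smul_smul, neg_mul_neg, hb2, one_smul, smul_neg]
    have key : ∀ y : V9, y + y = -y := by
      have k3 : ∀ a : V3, a + a = -a := by decide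
      intro y
      exact Prod.ext (k3 _) (k3 _)
    rw [← key v]
    abel
  have hpm : ∀ x ∈ W, ∀ v : V9, lab h (x : GL J9 F) v = v ∨ lab h (x : GL J9 F) v = -v := by
    intro x hx v
    rcases eq_or_ne v 0 with rfl | hv
    · exact Or.inl (lab_zero h (Subgroup.mem_subgroupOf.1 (hWN hx)))
    obtain ⟨z, hz', hzl⟩ := hz x hx v hv
    set u := lab h (x : GL J9 F) v
    have huv : B9 u v = 0 := by rw [B9_swap, show B9 v u = 0 from hperp x hx v, neg_zero]
    have hprod : ∀ y, B9 (u - v) y * B9 (u + v) y = 0 := by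
      intro y
      have e := hperp z hz' y
      rw [hzl] at e
      have h1 : B9 u (y - B9 v y • v) = B9 u y := by
        have hu2 : B9 u (B9 v y • v) = B9 v y * B9 u v := by
          simp only [B9, B3, Prod.smul_fst, Prod.smul_snd, smul_eq_mul]; ring
        have := B9_add_right u (y - B9 v y • v) (B9 v y • v)
        rw [sub_add_cancel, hu2, huv, mul_zero, add_zero] at this
        exact this.symm
      rw [h1] at e
      simp only [B9, B3, Prod.fst_add, Prod.snd_add, Prod.fst_sub, Prod.snd_sub, Prod.smul_fst,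
        Prod.smul_snd, smul_eq_mul] at e ⊢
      linear_combination -e
    by_contra hcon
    push Not at hcon
    obtain ⟨x1, hx1⟩ := exists_B9 (sub_ne_zero.2 hcon.1) 1
    obtain ⟨x2, hx2⟩ := exists_B9 (u := u + v)
      (fun e => hcon.2 (eq_neg_of_add_eq_zero_left e)) 1
    have a1 : B9 (u - v) x1 = -1 := by rw [B9_swap, hx1]
    have a2 : B9 (u + v) x2 = -1 := by rw [B9_swap, hx2]
    have b1 : B9 (u + v) x1 = 0 := by simpa [a1] using hprod x1
    have b2 : B9 (u - v) x2 = 0 := by simpa [a2] using hprod x2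
    have := hprod (x1 + x2)
    rw [B9_add_right, B9_add_right, a1, a2, b1, b2] at this
    simp at this
  intro x hx
  refine Subgroup.mem_sup_left (Subgroup.mem_subgroupOf.2 ?_)
  have hxN := Subgroup.mem_subgroupOf.1 (hWN hx)
  refine mem_Rsub_of_lab h hxN fun v => ?_
  rcases hpm x hx v with e | e
  · exact e
  · rcases eq_or_ne v 0 with rfl | hv
    · exact lab_zero h hxN
    · exact absurd e (hord x hx 1 v hv)

/-- The elementary abelian subgroup of phase matrices. -/
def AM (h : Four σ w) (M : Subgroup (GL J9 F)) : Subgroup M where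
  carrier := {g | ∃ b : Z3 × Z3, (g : GL J9 F) = tU h ((0, b.1), (0, b.2))}
  one_mem' := ⟨0, by rw [OneMemClass.coe_one]; exact (tU_zero h).symm⟩
  mul_mem' := by
    rintro a b ⟨p, hp⟩ ⟨q, hq⟩
    exact ⟨p + q, by
      rw [Subgroup.coe_mul, hp, hq, tU_mul]
      simp [zU_zero]⟩
  inv_mem' := by
    rintro a ⟨p, hp⟩
    refine ⟨-p, ?_⟩
    rw [Subgroup.coe_inv, hp]
    refine inv_eq_of_mul_eq_one_right ?_
    rw [tU_mul]
    simp [zU_zero]
    exact tU_zero h

variable [Fintype F]

/-- Every element of `M` lies in the normaliser, unless `M` is full. -/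
theorem le_N9 (H : Ctx h M) : M ≤ N9 w := by
  classical
  intro g hg
  have hsR : ∀ {v : V9} {c : Z3}, zU h c * tU h v ∈ M := fun {v c} => H.norm_le (Rsub_le h ⟨c, v, rfl⟩)
  haveI : IsMulCommutative (AM h M) := ⟨⟨fun a b => by
    obtain ⟨p, hp⟩ := a.2
    obtain ⟨q, hq⟩ := b.2
    apply Subtype.ext; apply Subtype.ext
    simp only [Subgroup.coe_mul, hp, hq]
    rw [tU_mul, tU_mul, add_comm (((0, p.1), (0, p.2)) : V9)]
    simp⟩⟩
  have hAR : AM h M ≤ RM h M := fun a ⟨p, hp⟩ =>
    Subgroup.mem_subgroupOf.2 ⟨0, _, by rw [hp, zU_zero, one_mul]⟩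
  have hcyc : ¬ IsCyclic (AM h M) := fun hc => by
    obtain ⟨a, ha⟩ := IsCyclic.exists_ofOrder_eq_natCard (α := AM h M)
    have h3 : orderOf a ∣ 3 := orderOf_dvd_of_pow_eq_one (Subtype.ext (cube_RM h (hAR a.2)))
    let f : Z3 × Z3 → AM h M := fun p => ⟨⟨zU h 0 * tU h ((0, p.1), (0, p.2)), hsR⟩, p,
      by simp [zU_zero]⟩
    have hf : Function.Injective f := fun p q e => by
      have e' := (zT_inj h (congrArg (fun z : AM h M => ((z : M) : GL J9 F)) e)).2
      simp [Prod.ext_iff] at e'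
      exact Prod.ext e'.1 e'.2
    have h9 := Nat.card_le_card_of_injective f hf
    rw [Nat.card_prod, Nat.card_zmod] at h9
    rw [ha] at h3
    have := Nat.le_of_dvd (by norm_num) h3
    omega
  obtain ⟨-, -, hS, hJ2, -, -, -⟩ := specials h H
  have hN := mem_of_local (NM w M) (RM h M) (ZM h M) (ZM h M) (SM h M) (AM h M) (J := jM h H)
    (fun x hx => Subgroup.mem_subgroupOf.2 (Rsub_le h (Subgroup.mem_subgroupOf.1 hx)).1)
    (fun n hn r hr => norm_RM h hn hr)
    ?_ (fun r hr => cube_RM h hr) ?_ (fun r hr s hs => comm_RM h hr hs) hAR hcyc ?_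
    (fun z hz => mem_center_of_scal h hz) ?_ (fun z => ⟨1, Subtype.ext (by simpa using cube_ZM h z.2)⟩)
    le_rfl (fun c hc _ => hc) (odd_le h H) ?_ (fun x hx hxZ g => cent_RM h H hx hxZ g) hJ2 ?_
    ((SM_le h).trans (PM_le h)) (SM_two h) (SM_maximal h H) ?_ (isolated h H) ⟨g, hg⟩
  · exact Subgroup.mem_subgroupOf.1 hN
  · intro x hx
    refine Subgroup.mem_subgroupOf.2 (mem_N9 h fun v => ?_)
    obtain ⟨c, u, e⟩ := Subgroup.mem_subgroupOf.1 (hx ⟨zU h 0 * tU h v, hsR⟩
      (Subgroup.mem_subgroupOf.2 ⟨0, v, rfl⟩))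
    refine ⟨u, c, ?_⟩
    simpa [zU_zero] using e
  · intro z hz
    obtain ⟨c, hc⟩ := Subgroup.mem_subgroupOf.1 hz
    exact Subgroup.mem_subgroupOf.2 ⟨c, 0, by rw [hc, tU_zero, mul_one]⟩
  · rintro a ⟨p, hp⟩ haZ
    obtain ⟨c, hc⟩ := Subgroup.mem_subgroupOf.1 haZ
    have e := (zT_inj h (c := 0) (v := ((0, p.1), (0, p.2))) (c' := c) (v' := 0)
      (by rw [zU_zero, one_mul, tU_zero, mul_one, ← hp, ← hc])).2
    apply Subtype.ext
    rw [hp, e, tU_zero]
    rfl
  · intro z hz
    obtain ⟨c, hc⟩ := Subgroup.mem_subgroupOf.1 hz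
    exact Subgroup.mem_subgroupOf.2 (hc ▸ zU_mem_N9 h c)
  · intro x hx hxZ y hy hyZ
    obtain ⟨c, u, hu0, hu⟩ := ne_zero_of_notMem h hx hxZ
    obtain ⟨d, v, hv0, hv⟩ := ne_zero_of_notMem h hy hyZ
    obtain ⟨n, hn, e⟩ := exists_conj h hu0 hv0 (d - c)
    refine ⟨⟨n, H.norm_le hn⟩, Subgroup.mem_subgroupOf.2 hn.1, Subtype.ext ?_⟩
    simp only [Subgroup.coe_mul, Subgroup.coe_inv, hu, hv]
    rw [← mul_assoc, ← zU_comm h c n, mul_assoc (zU h c), mul_assoc (zU h c), e, ← mul_assoc, ← zU_add,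
      add_sub_cancel]
  · intro r hr
    obtain ⟨c, v, hv⟩ := Subgroup.mem_subgroupOf.1 hr
    refine Subgroup.mem_subgroupOf.2 ⟨c + c + ((-v).1.2 * v.1.1 + (-v).2.2 * v.2.1), ?_⟩
    simp only [Subgroup.coe_mul, Subgroup.coe_inv, hv, jM]
    rw [← mul_assoc (jT h), ← zU_comm h c (jT h), mul_assoc (zU h c), mul_assoc (zU h c), (jT_mem h).2,
      mul_assoc, ← mul_assoc (tU h (-v)), ← zU_comm h c (tU h (-v)), mul_assoc, tU_mul,
      neg_add_cancel, tU_zero, mul_one, ← mul_assoc, ← zU_add, ← zU_add]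
  · intro x hx
    exact normalizer_le_of_swap (Subgroup.mem_subgroupOf.2 (sU_mem h).1.1 : sM h H ∈ NM w M) rfl
      (fun g hg => normalizer_char h H g hg)
      (fun g hg => mem_NM_of_commute_t h H (congrArg Subtype.val hg)) hx

omit [Fintype F] in
lemma fK_not_monomial :
    ((kronHom (fU h, (1 : GL Z3 F)) : GL J9 F) : Matrix J9 J9 F) (0, 0) (0, 0) ≠ 0 ∧
      ((kronHom (fU h, (1 : GL Z3 F)) : GL J9 F) : Matrix J9 J9 F) (1, 0) (0, 0) ≠ 0 := by
  constructor <;>
    · rw [coe_kronHom, Matrix.kronecker_apply, coe_fU, Units.val_one, Matrix.one_apply_eq, mul_one]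
      exact h.ph_ne_zero _

/-- The normaliser of the extraspecial group of order `3⁵` is maximal in `SU₉(2)`. -/
theorem two_le_norm {F : Type*} [Field F] [Fintype F] (hF : Fintype.card F = 4) {σ : F ≃+* F}
    (hσ : ∀ x, σ x = x ^ 2) {w : F} (hw : IsPrimitiveRoot w 3) (M : Subgroup (GL J9 F))
    (hN : N9 w ⊓ (UU J9 σ ⊓ Cfsg.Geo.specialLinear J9 F) ≤ M)
    (hM : M ≤ UU J9 σ ⊓ Cfsg.Geo.specialLinear J9 F) :
    M ≤ N9 w ∨ UU J9 σ ⊓ Cfsg.Geo.specialLinear J9 F ≤ M := by
  have h := Four.of_card hF hσ hw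
  by_cases hfull : Full h M
  · refine Or.inr (le_of_monomial (q := 2) (by rw [hF]; norm_num) hσ hM ?_ ?_ ?_)
    · rintro g ⟨d, hd⟩ ⟨-, hdet⟩
      have hne : ∀ j, d j ≠ 0 := fun j e => by
        have h0 : (g : Matrix J9 J9 F).det = 0 := by
          rw [hd, Matrix.det_diagonal]
          exact Finset.prod_eq_zero (Finset.mem_univ j) e
        exact (((Matrix.isUnit_iff_isUnit_det _).1 g.isUnit).ne_zero) h0
      choose f hf using fun j => h.all _ (hne j)
      have hg : g = mU h 1 f := by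
        refine Units.ext (Matrix.ext fun i j => ?_)
        rw [hd, coe_mU, mono_apply, Equiv.Perm.one_apply, Matrix.diagonal_apply]
        rcases eq_or_ne i j with rfl | e
        · simp [hf]
        · simp [e]
      have hsum : ∑ j, f j = 0 := by
        refine h.ph_inj ?_
        rw [← h.mono_det (1 : Equiv.Perm J9) f, ph_zero, ← coe_mU h, ← hg]
        have hd1 : Matrix.GeneralLinearGroup.det g = 1 := hdet
        rw [← Matrix.GeneralLinearGroup.val_det_apply, hd1, Units.val_one]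
      rw [hg]
      exact hfull.1 f hsum
    · intro π
      rw [pmHom_eq h]
      exact hfull.2 π
    · exact ⟨_, hN (kron_mem_N h (fU_mem_UU h) (one_mem _)).1, (0, 0), (1, 0), (0, 0), by simp,
        (fK_not_monomial h).1, (fK_not_monomial h).2⟩
  · exact Or.inl (le_N9 h ⟨hM, hN, hfull⟩)

end CfsgLib.Geometric.SUNine.Two
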