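import Cfsg.Agent.Lib.Geometric.SLNine.Defs

/-!
The permutation of the labels induced by an element permuting the lines spanned by Pauli matrices.
-/

set_option autoImplicit false
set_option linter.unusedSectionVars false

namespace CfsgLib.Geometric.SUNine.Two

open CfsgLib.Geometric.SLNine

variable {F : Type*} [Field F] {ι V : Type*} [Fintype ι] [DecidableEq ι] [Nonempty ι]

/-- Distinct labels give independent invertible matrices. -/
structure GoodFam (P : V → Matrix ι ι F) : Prop where
  inj : ∀ (u v : V) (c : F), P v = c • P u → v = u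
  unit : ∀ v, IsUnit (P v)

variable {P : V → Matrix ι ι F}

lemma GoodFam.coeff_ne_zero (hP : GoodFam P) {g : GL ι F} {v u : V} {c : F}
    (e : (g : Matrix ι ι F) * P v = c • (P u * (g : Matrix ι ι F))) : c ≠ 0 := by
  rintro rfl
  rw [zero_smul] at e
  exact (g.isUnit.mul (hP.unit v)).ne_zero e

lemma GoodFam.eq_of_eq (hP : GoodFam P) {g : GL ι F} {v u u' : V} {c c' : F}
    (e : (g : Matrix ι ι F) * P v = c • (P u * (g : Matrix ι ι F)))
    (e' : (g : Matrix ι ι F) * P v = c' • (P u' * (g : Matrix ι ι F))) : u' = u := by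
  have hc' := hP.coeff_ne_zero e'
  refine hP.inj u u' (c'⁻¹ * c) ?_
  have h := congrArg (· * ((g⁻¹ : GL ι F) : Matrix ι ι F)) (e'.symm.trans e)
  simp only [smul_mul_assoc, mul_assoc, Units.mul_inv, mul_one] at h
  rw [mul_smul, ← h, smul_smul, inv_mul_cancel₀ hc', one_smul]

/-- A forward map on the labels suffices for membership. -/
lemma GoodFam.mem_monNorm [Finite V] (hP : GoodFam P) {g : GL ι F}
    (hg : ∀ v, ∃ (u : V) (c : F), (g : Matrix ι ι F) * P v = c • (P u * (g : Matrix ι ι F))) :
    g ∈ monNorm P := by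
  refine ⟨hg, ?_⟩
  choose f c hf using hg
  have hinj : Function.Injective f := fun a b e => by
    refine hP.inj b a (c a * (c b)⁻¹) ?_
    have hb := hP.coeff_ne_zero (hf b)
    have h : (g : Matrix ι ι F) * P a = (g : Matrix ι ι F) * ((c a * (c b)⁻¹) • P b) := by
      rw [mul_smul_comm, hf b, hf a, e, smul_smul, mul_assoc, inv_mul_cancel₀ hb, mul_one]
    exact g.isUnit.mul_left_cancel h
  intro u
  obtain ⟨v, rfl⟩ := (Finite.injective_iff_surjective.1 hinj) u
  refine ⟨v, (c v)⁻¹, ?_⟩
  have hv := hP.coeff_ne_zero (hf v)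
  have h : P v = c v • (((g⁻¹ : GL ι F) : Matrix ι ι F) * P (f v) * (g : Matrix ι ι F)) := by
    rw [mul_assoc, ← mul_smul_comm, ← hf v, ← mul_assoc, Units.inv_mul, one_mul]
  conv_rhs => rw [h]
  rw [smul_mul_assoc, smul_smul, inv_mul_cancel₀ hv, one_smul, mul_assoc, Units.mul_inv, mul_one]

/-- The image of a label. -/
noncomputable def label (g : monNorm P) (v : V) : V := Classical.choose (g.2.1 v)

lemma label_spec (g : monNorm P) (v : V) :
    ∃ c : F, ((g : GL ι F) : Matrix ι ι F) * P v =
      c • (P (label g v) * ((g : GL ι F) : Matrix ι ι F)) :=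
  Classical.choose_spec (g.2.1 v)

lemma GoodFam.label_eq (hP : GoodFam P) (g : monNorm P) {v u : V} {c : F}
    (e : ((g : GL ι F) : Matrix ι ι F) * P v = c • (P u * ((g : GL ι F) : Matrix ι ι F))) :
    label g v = u := by
  obtain ⟨d, hd⟩ := label_spec g v
  exact hP.eq_of_eq e hd

lemma GoodFam.label_mul (hP : GoodFam P) (g h : monNorm P) (v : V) :
    label (g * h) v = label g (label h v) := by
  obtain ⟨c, hc⟩ := label_spec h v
  obtain ⟨d, hd⟩ := label_spec g (label h v)
  refine hP.label_eq _ (c := c * d) ?_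
  simp only [Subgroup.coe_mul, Units.val_mul]
  rw [mul_assoc, hc, mul_smul_comm, ← mul_assoc, hd, smul_mul_assoc, smul_smul, mul_assoc]

lemma GoodFam.label_one (hP : GoodFam P) (v : V) : label (1 : monNorm P) v = v :=
  hP.label_eq _ (c := 1) (by simp)

/-- The action on the labels as a homomorphism. -/
noncomputable def GoodFam.act (hP : GoodFam P) : monNorm P →* Equiv.Perm V where
  toFun g :=
    { toFun := label g
      invFun := label g⁻¹
      left_inv := fun v => by rw [← hP.label_mul, inv_mul_cancel, hP.label_one]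
      right_inv := fun v => by rw [← hP.label_mul, mul_inv_cancel, hP.label_one] }
  map_one' := Equiv.ext fun v => hP.label_one v
  map_mul' g h := Equiv.ext fun v => hP.label_mul g h v

lemma GoodFam.act_apply (hP : GoodFam P) (g : monNorm P) {v u : V} {c : F}
    (e : ((g : GL ι F) : Matrix ι ι F) * P v = c • (P u * ((g : GL ι F) : Matrix ι ι F))) :
    hP.act g v = u := hP.label_eq g e

lemma GoodFam.act_spec (hP : GoodFam P) (g : monNorm P) (v : V) :
    ∃ c : F, ((g : GL ι F) : Matrix ι ι F) * P v =
      c • (P (hP.act g v) * ((g : GL ι F) : Matrix ι ι F)) := label_spec g v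

end CfsgLib.Geometric.SUNine.Two
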