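import Cfsg.Agent.Lib.Geometric.SUNine.Two.Dim9

/-!
Block diagonal matrices in dimension nine over the field of four elements.
-/

set_option autoImplicit false
set_option linter.unusedSectionVars false

namespace CfsgLib.Geometric.SUNine.Two

open Matrix
open CfsgLib.Geometric.SLNine

variable {F : Type*} [Field F] {σ : F ≃+* F} {w : F}

local notation "Z3" => ZMod 3

lemma bdHom_apply (a : Z3 → GL Z3 F) (i j : J9) :
    ((bdHom a : GL J9 F) : Matrix J9 J9 F) i j =
      if i.1 = j.1 then (a i.1 : Matrix Z3 Z3 F) i.2 j.2 else 0 := rfl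

lemma kron_one_eq (b : GL Z3 F) : kronHom ((1 : GL Z3 F), b) = bdHom fun _ => b := by
  refine Units.ext (Matrix.ext fun i j => ?_)
  rw [bdHom_apply, coe_kronHom, Units.val_one, Matrix.kronecker_apply, Matrix.one_apply]
  split_ifs <;> simp

lemma bdHom_mU (h : Four σ w) (π : Z3 → Equiv.Perm Z3) (f : Z3 → Z3 → Z3) :
    bdHom (fun i => mU h (π i) (f i)) = mU h (Equiv.prodCongrRight π) (fun j => f j.1 j.2) := by
  refine Units.ext (Matrix.ext fun i j => ?_)
  obtain ⟨i, k⟩ := i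
  obtain ⟨j, l⟩ := j
  rw [bdHom_apply, coe_mU, mono_apply]
  by_cases e : i = j
  · subst e; simp [mono_apply]
  · simp [e, mono_apply, Prod.ext_iff]

/-- A block shift conjugates the blocks. -/
lemma shift_bd (h : Four σ w) (ρ : Equiv.Perm Z3) (a : Z3 → GL Z3 F) :
    mU h (ρ.prodCongr (Equiv.refl Z3)) 0 * bdHom a * (mU h (ρ.prodCongr (Equiv.refl Z3)) 0)⁻¹ =
      bdHom fun i => a (ρ.symm i) := by
  rw [mul_inv_eq_iff_eq_mul]
  refine Units.ext (Matrix.ext fun i j => ?_)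
  obtain ⟨i, k⟩ := i
  obtain ⟨j, l⟩ := j
  rw [Units.val_mul, Units.val_mul, Matrix.mul_apply, Matrix.mul_apply,
    Finset.sum_eq_single (ρ.symm i, k), Finset.sum_eq_single (ρ j, l)]
  · by_cases e : i = ρ j
    · subst e; simp [bdHom_apply, mono_apply, ph_zero]
    · simp [bdHom_apply, mono_apply, ph_zero, e, Equiv.symm_apply_eq]
  · rintro ⟨x, y⟩ _ hx
    rw [coe_mU, mono_apply, if_neg, mul_zero]
    intro e
    exact hx (by simpa [Prod.ext_iff] using e)
  · simp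
  · rintro ⟨x, y⟩ _ hx
    rw [coe_mU, mono_apply, if_neg, zero_mul]
    intro e
    exact hx (by simp [Prod.ext_iff] at e ⊢; exact ⟨by rw [e.1, Equiv.symm_apply_apply], e.2.symm⟩)
  · simp

lemma coe_zU3_mul (h : Four σ w) (c : Z3) (x : GL Z3 F) :
    ((zU h c * x : GL Z3 F) : Matrix Z3 Z3 F) = ph w c • (x : Matrix Z3 Z3 F) := by
  rw [Units.val_mul, coe_zU, smul_mul_assoc, one_mul]

lemma pU_mul (h : Four σ w) (u v : V3) :
    pU h u * pU h v = zU h (u.2 * v.1) * pU h (u + v) :=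
  Units.ext (by rw [coe_zU3_mul, Units.val_mul, coe_pU, coe_pU, coe_pU, h.P3_mul])

lemma pU_zero (h : Four σ w) : pU h 0 = 1 := Units.ext (by rw [coe_pU, h.P3_zero, Units.val_one])

lemma pU_inv (h : Four σ w) (u : V3) : (pU h u)⁻¹ = zU h (u.2 * u.1) * pU h (-u) := by
  refine inv_eq_of_mul_eq_one_right ?_
  rw [← mul_assoc, ← zU_comm h _ (pU h u), mul_assoc, pU_mul, add_neg_cancel, pU_zero, mul_one,
    ← zU_add, Prod.fst_neg, mul_neg, add_neg_cancel, zU_zero]

lemma conj_pU (h : Four σ w) {a : GL Z3 F} (ha : a ∈ UU Z3 σ) (v : V3) :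
    ∃ c, a * pU h v * a⁻¹ = zU h c * pU h (lab3 h a v) := by
  obtain ⟨c, hc⟩ := lab3_spec h (UU_le_N3 h ha) v
  refine ⟨c, mul_inv_eq_iff_eq_mul.2 (Units.ext ?_)⟩
  rw [Units.val_mul, Units.val_mul, coe_zU3_mul, coe_pU, coe_pU, smul_mul_assoc]
  exact hc

lemma tU_eq_bd (h : Four σ w) (b : Z3) (v : V3) :
    tU h ((0, b), v) = bdHom fun i => zU h (b * i) * pU h v := by
  have e : (fun i : Z3 => zU h (b * i) * pU h v) =
      fun i => mU h (Equiv.addRight v.1) (fun j => b * i + v.2 * j) := by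
    funext i
    rw [zU, pU, mU_mul, one_mul]
  rw [e, bdHom_mU, tU]
  congr 1
  ext j <;> simp

/-- The scalar-free label of an element of dimension three acting trivially. -/
lemma exists_of_lab3_id (h : Four σ w) {a : GL Z3 F} (ha : a ∈ UU Z3 σ)
    (hl : ∀ v, lab3 h a v = v) : ∃ c u, a = zU h c * pU h u := by
  obtain ⟨hk, hlk⟩ := kron_mem_N h (one_mem (UU Z3 σ)) ha
  obtain ⟨c, v, hv⟩ := mem_Rsub_of_lab h hk.1 fun v => by
    rw [hlk, lab3_one, hl]
  have hent : ∀ k l : Z3, (a : Matrix Z3 Z3 F) k l =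
      ((zU h c * tU h v : GL J9 F) : Matrix J9 J9 F) (0, k) (0, l) := by
    intro k l
    rw [← hv, kron_one_eq, bdHom_apply, if_pos rfl]
  rw [Units.val_mul, coe_zU, smul_mul_assoc, one_mul] at hent
  simp only [Matrix.smul_apply, tU, coe_mU, mono_apply, Equiv.prodCongr_apply, Prod.map,
    Prod.mk.injEq, mul_zero, zero_add, smul_eq_mul] at hent
  have hv1 : v.1.1 = 0 := by
    by_contra hne
    have : (a : Matrix Z3 Z3 F) = 0 := Matrix.ext fun k l => by
      rw [hent, if_neg (fun e => hne (by simpa using e.1.symm)), mul_zero]; rfl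
    exact a.isUnit.ne_zero this
  refine ⟨c, v.2, Units.ext (Matrix.ext fun k l => ?_)⟩
  rw [hent, coe_zU3_mul, coe_pU, Matrix.smul_apply, P3_eq, mono_apply]
  by_cases e : k = l + v.2.1 <;> simp [hv1, e]

lemma lab3_add (h : Four σ w) {a : GL Z3 F} (ha : a ∈ UU Z3 σ) (u v : V3) :
    lab3 h a (u + v) = lab3 h a u + lab3 h a v := by
  obtain ⟨hk, hl⟩ := kron_mem_N h (one_mem (UU Z3 σ)) ha
  have e := lab_add h hk.1 (0, u) (0, v)
  rw [hl, hl, hl] at e
  simpa using congrArg Prod.snd e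

lemma lab3_smul (h : Four σ w) {a : GL Z3 F} (ha : a ∈ UU Z3 σ) (c : Z3) (v : V3) :
    lab3 h a (c • v) = c • lab3 h a v := by
  let f : V3 →+ V3 := AddMonoidHom.mk' (lab3 h a) (lab3_add h ha)
  exact (map_zsmul_zmod f c v : _)
where
  map_zsmul_zmod (f : V3 →+ V3) (c : Z3) (v : V3) : f (c • v) = c • f v := f.toZModLinearMap 3 |>.map_smul c v

lemma lab3_B3 (h : Four σ w) {a : GL Z3 F} (ha : a ∈ UU Z3 σ) (u v : V3) :
    B3 (lab3 h a u) (lab3 h a v) = B3 u v := by
  obtain ⟨hk, hl⟩ := kron_mem_N h (one_mem (UU Z3 σ)) ha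
  have e := lab_B9 h hk.1 (0, u) (0, v)
  rw [hl, hl] at e
  simpa [B9, B3, lab3_one] using e

/-- The map with the given images of the basis. -/
def lin (p q x : V3) : V3 := x.1 • p + x.2 • q

lemma lab3_eq_lin (h : Four σ w) {a : GL Z3 F} (ha : a ∈ UU Z3 σ) (x : V3) :
    lab3 h a x = lin (lab3 h a (1, 0)) (lab3 h a (0, 1)) x := by
  rw [lin, ← lab3_smul h ha, ← lab3_smul h ha, ← lab3_add h ha]
  congr 1
  simp [Prod.ext_iff]

end CfsgLib.Geometric.SUNine.Two
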