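import Cfsg.Agent.Lib.Geometric.SUNine.Two.Local

/-!
Over the field of four elements an element of `M` commuting with a Pauli matrix lies in the
normaliser, unless `M` is full.
-/

set_option autoImplicit false
set_option linter.unusedSectionVars false

namespace CfsgLib.Geometric.SUNine.Two

open Matrix
open CfsgLib.Geometric.SLNine

variable {F : Type*} [Field F] {σ : F ≃+* F} {w : F}

local notation "Z3" => ZMod 3

/-- An element commuting with the phase matrix of the first factor is block diagonal. -/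
lemma exists_bd (h : Four σ w) {g : GL J9 F} (hg : g ∈ SU J9 σ)
    (hc : Commute g (tU h ((0, 1), 0))) :
    ∃ a : Z3 → GL Z3 F, (∀ i, a i ∈ UU Z3 σ) ∧ g = bdHom a := by
  have hoff : ∀ g : GL J9 F, Commute g (tU h ((0, 1), 0)) → ∀ i j : J9, i.1 ≠ j.1 →
      (g : Matrix J9 J9 F) i j = 0 := by
    intro g hc i j hij
    have e : ((g * tU h ((0, 1), 0) : GL J9 F) : Matrix J9 J9 F) i j =
        ((tU h ((0, 1), 0) * g : GL J9 F) : Matrix J9 J9 F) i j := by rw [hc.eq]
    rw [Units.val_mul, Units.val_mul, tU, coe_mU, Matrix.mul_apply, Matrix.mul_apply,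
      Finset.sum_eq_single j, Finset.sum_eq_single i] at e
    · by_contra hne
      simp [mono_apply] at e
      rw [mul_comm] at e
      exact hij (h.ph_inj (mul_right_cancel₀ hne e)).symm
    · intro k _ hk; simp [mono_apply, Ne.symm hk]
    · simp
    · intro k _ hk; simp [mono_apply, hk]
    · simp
  let blk : GL J9 F → Z3 → Matrix Z3 Z3 F := fun g i =>
    Matrix.of fun k l => (g : Matrix J9 J9 F) (i, k) (i, l)
  have hbd : ∀ g : GL J9 F, Commute g (tU h ((0, 1), 0)) → (g : Matrix J9 J9 F) = bd (blk g) := by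
    intro g hc
    ext ⟨i, k⟩ ⟨j, l⟩
    rw [bd_apply]
    split_ifs with e
    · change i = j at e
      subst e; rfl
    · exact hoff g hc (i, k) (j, l) e
  have hinv : ∀ g : GL J9 F, Commute g (tU h ((0, 1), 0)) → ∀ i, blk g i * blk g⁻¹ i = 1 := by
    intro g hc i
    have e : bd (blk g) * bd (blk g⁻¹) = bd (1 : Z3 → Matrix Z3 Z3 F) := by
      rw [← hbd g hc, ← hbd g⁻¹ hc.inv_left, Units.mul_inv, bd_one]
    rw [bd_mul] at e
    ext k l
    simpa [bd_apply] using congrFun (congrFun e (i, k)) (i, l)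
  let a : Z3 → GL Z3 F := fun i =>
    ⟨blk g i, blk g⁻¹ i, hinv g hc i, by simpa using hinv g⁻¹ hc.inv_left i⟩
  have e : g = bdHom a := Units.ext (by rw [coe_bdHom]; exact hbd g hc)
  refine ⟨a, fun i => (mem_UU_iff σ _).2 ?_, e⟩
  have hU := (mem_UU_iff σ g).1 hg.1
  rw [hbd g hc] at hU
  ext k l
  have e' := congrFun (congrFun hU (i, k)) (i, l)
  simp only [Matrix.mul_apply, Matrix.transpose_apply, Matrix.map_apply, Matrix.one_apply,
    Prod.mk.injEq, true_and] at e' ⊢
  rw [Fintype.sum_prod_type, Finset.sum_eq_single i] at e'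
  · simpa [bd_apply] using e'
  · intro x _ hx
    exact Finset.sum_eq_zero fun y _ => by simp [bd_apply, hx]
  · simp

/-- The centraliser in `M` of a non-scalar element of the Pauli group. -/
theorem mem_N9_of_commute (h : Four σ w) {M : Subgroup (GL J9 F)} (hNM : N9 w ⊓ SU J9 σ ≤ M)
    (hM : M ≤ SU J9 σ) (hfull : ¬ Full h M) {g : GL J9 F} (hg : g ∈ M) {c : Z3} {v : V9}
    (hv : v ≠ 0) (hc : Commute g (zU h c * tU h v)) : g ∈ N9 w := by
  have hc' : Commute g (tU h v) := by
    have hz : Commute g (zU h c)⁻¹ := Commute.inv_right ((zU_comm h c g).symm)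
    simpa using hz.mul_right hc
  obtain ⟨n, hn, he⟩ := exists_conj h (u := ((0, 1), 0)) (by decide) hv 0
  rw [zU_zero, one_mul] at he
  have hnM : n ∈ M := hNM hn
  have hg' : n⁻¹ * g * n ∈ M := mul_mem (mul_mem (inv_mem hnM) hg) hnM
  have hcomm : Commute (n⁻¹ * g * n) (tU h ((0, 1), 0)) := by
    show n⁻¹ * g * n * tU h ((0, 1), 0) = tU h ((0, 1), 0) * (n⁻¹ * g * n)
    calc n⁻¹ * g * n * tU h ((0, 1), 0) = n⁻¹ * (g * (n * tU h ((0, 1), 0) * n⁻¹)) * n := by group
      _ = n⁻¹ * ((n * tU h ((0, 1), 0) * n⁻¹) * g) * n := by rw [he, hc'.eq]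
      _ = tU h ((0, 1), 0) * (n⁻¹ * g * n) := by group
  obtain ⟨a, ha, e⟩ := exists_bd h (hM hg') hcomm
  rcases mem_N9_or_full h hNM ha (e ▸ hg') with h' | h'
  · rw [← e] at h'
    have := (N9 w).mul_mem ((N9 w).mul_mem hn.1 h') ((N9 w).inv_mem hn.1)
    simpa [mul_assoc] using this
  · exact absurd h' hfull

end CfsgLib.Geometric.SUNine.Two
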