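import Cfsg.Agent.Lib.Geometric.SUNine.Two.Mono
import Cfsg.Agent.Lib.Geometric.SUNine.Two.Act

/-!
In dimension three over the field of four elements every isometry of the unitary form permutes the
lines of the Pauli group: a column has one or three non-zero entries.
-/

set_option autoImplicit false
set_option linter.unusedSectionVars false

namespace CfsgLib.Geometric.SUNine.Two

open Matrix
open CfsgLib.Geometric.SLNine

variable {F : Type*} [Field F] {σ : F ≃+* F} {w : F}

local notation "Z3" => ZMod 3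

lemma sum_three {M : Type*} [AddCommMonoid M] (f : Z3 → M) : ∑ k, f k = f 0 + f 1 + f 2 :=
  Fin.sum_univ_three f

lemma Four.one_add_add (h : Four σ w) : 1 + w + w ^ 2 = 0 := by
  have := h.root.geom_sum_eq_zero (by norm_num)
  simpa [Finset.sum_range_succ] using this

lemma Four.sum_ph (h : Four σ w) (d : Z3) :
    ∑ k : Z3, ph w (k * d) = if d = 0 then 1 else 0 := by
  have hd : ∀ d : Z3, d = 0 ∨ d = 1 ∨ d = 2 := by decide
  have hp1 : ph w (1 : Z3) = w := by
    rw [ph, show ((1 : Z3)).val = 1 from rfl, pow_one]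
  have hp2 : ph w (2 : Z3) = w ^ 2 := by
    rw [ph, show ((2 : Z3)).val = 2 from rfl]
  have h2 := h.one_add_add
  rw [sum_three]
  rcases hd d with rfl | rfl | rfl
  · rw [if_pos rfl, mul_zero, mul_zero, mul_zero, ph_zero, h.add_self, zero_add]
  · rw [if_neg (by decide), mul_one, mul_one, mul_one, ph_zero, hp1, hp2]
    exact h2
  · rw [if_neg (by decide), zero_mul, one_mul, show (2 : Z3) * 2 = 1 from by decide, ph_zero, hp1, hp2]
    linear_combination h2

/-- The three-dimensional family. -/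
lemma Four.P3_mul (h : Four σ w) (u v : V3) : P3 w u * P3 w v = ph w (u.2 * v.1) • P3 w (u + v) := by
  rw [P3_eq, P3_eq, P3_eq, h.mono_mul, h.mono_smul]
  congr 1
  · ext j; simp [add_comm, add_left_comm]
  · funext j; simp; ring

lemma Four.P3_good (h : Four σ w) : GoodFam (P3 w) where
  inj u v c e := by
    rw [P3_eq, P3_eq] at e
    have hc : c ≠ 0 := by
      rintro rfl
      have := congrFun (congrFun e (0 + v.1)) 0
      simp [mono_apply] at this
      exact h.ph_ne_zero _ this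
    obtain ⟨a, rfl⟩ := h.all c hc
    rw [h.mono_smul] at e
    obtain ⟨e1, e2⟩ := h.mono_inj e
    have e1' : v.1 = u.1 := by simpa using Equiv.congr_fun e1 0
    have a0 : a = 0 := by simpa using (congrFun e2 0).symm
    exact Prod.ext e1' (by simpa [a0] using congrFun e2 1)
  unit v := (mU h (Equiv.addRight v.1) (fun j => v.2 * j)).isUnit

lemma Four.P3_zero (h : Four σ w) : P3 w (0 : V3) = 1 := by
  rw [P3_eq, ← mono_one]
  congr 1
  · ext j; simp
  · funext j; simp

/-- The Pauli matrices as units. -/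
def pU (h : Four σ w) (v : V3) : GL Z3 F := mU h (Equiv.addRight v.1) (fun j => v.2 * j)

lemma coe_pU (h : Four σ w) (v : V3) : (pU h v : Matrix Z3 Z3 F) = P3 w v := rfl

lemma pU_mem_UU (h : Four σ w) (v : V3) : pU h v ∈ UU Z3 σ := mU_mem_UU h _ _

lemma det_pU (h : Four σ w) (v : V3) : Matrix.GeneralLinearGroup.det (pU h v) = 1 :=
  det_mU h _ (by rw [sum_three]; revert v; decide)

/-- Monomial matrices permute the lines. -/
lemma mU_mem_N3 (h : Four σ w) (π : Equiv.Perm Z3) (f : Z3 → Z3) : mU h π f ∈ N3 w := by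
  refine h.P3_good.mem_monNorm fun v => ?_
  have key : ∀ p g : Z3 → Z3, Function.Injective p → ∀ a b : Z3, ∃ u : V3, ∃ c : Z3, ∀ j : Z3,
      p (j + a) = p j + u.1 ∧ g (j + a) + b * j = c + (u.2 * p j + g j) := by decide
  obtain ⟨u, c, hu⟩ := key π f π.injective v.1 v.2
  refine ⟨u, ph w c, ?_⟩
  rw [coe_mU, P3_eq, P3_eq, h.mono_mul, h.mono_mul, h.mono_smul]
  congr 1
  · ext j; simpa using (hu j).1
  · funext j; simpa using (hu j).2

/-- The Fourier matrix. -/
def fU (h : Four σ w) : GL Z3 F where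
  val := Matrix.of fun i j => ph w (i * j)
  inv := Matrix.of fun i j => ph w (-(i * j))
  val_inv := by
    ext i j
    rw [Matrix.mul_apply, Matrix.one_apply]
    simp only [Matrix.of_apply, ← h.ph_add]
    rw [Finset.sum_congr rfl fun k _ => congrArg (ph w) (show i * k + -(k * j) = k * (i - j) by ring),
      h.sum_ph]
    simp [sub_eq_zero]
  inv_val := by
    ext i j
    rw [Matrix.mul_apply, Matrix.one_apply]
    simp only [Matrix.of_apply, ← h.ph_add]
    rw [Finset.sum_congr rfl fun k _ => congrArg (ph w) (show -(i * k) + k * j = k * (j - i) by ring),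
      h.sum_ph]
    simp [sub_eq_zero, eq_comm]

lemma coe_fU (h : Four σ w) (i j : Z3) : (fU h : Matrix Z3 Z3 F) i j = ph w (i * j) := rfl

lemma fU_mem_UU (h : Four σ w) : fU h ∈ UU Z3 σ := by
  rw [mem_UU_iff]
  ext i j
  rw [Matrix.mul_apply, Matrix.one_apply]
  simp only [Matrix.transpose_apply, Matrix.map_apply, coe_fU, h.σ_ph, ← h.ph_add]
  rw [Finset.sum_congr rfl fun k _ => congrArg (ph w) (show k * i + -(k * j) = k * (i - j) by ring),
    h.sum_ph]
  simp [sub_eq_zero]

lemma fU_sq (h : Four σ w) : fU h * fU h = mU h (Equiv.neg Z3) 0 := by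
  refine Units.ext (Matrix.ext fun i j => ?_)
  rw [Units.val_mul, Matrix.mul_apply, coe_mU, mono_apply]
  simp only [coe_fU, ← h.ph_add]
  rw [Finset.sum_congr rfl fun k _ => congrArg (ph w) (show i * k + k * j = k * (i + j) by ring),
    h.sum_ph]
  simp [add_eq_zero_iff_eq_neg, ph_zero]

lemma det_fU (h : Four σ w) : Matrix.GeneralLinearGroup.det (fU h) = 1 := by
  have e := congrArg (fun g : GL Z3 F => Matrix.GeneralLinearGroup.det g) (fU_sq h)
  simp only [map_mul] at e
  rw [det_mU h _ (by simp)] at e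
  refine Units.ext ?_
  have e' : ((Matrix.GeneralLinearGroup.det (fU h) : Fˣ) : F) *
      (Matrix.GeneralLinearGroup.det (fU h) : Fˣ) = 1 := by
    rw [← Units.val_mul, e, Units.val_one]
  set d := ((Matrix.GeneralLinearGroup.det (fU h) : Fˣ) : F)
  have : (d - 1) * (d - 1) = 0 := by linear_combination e' + (1 - d) * h.two
  exact sub_eq_zero.1 (mul_self_eq_zero.1 this)

lemma fU_mul_P3 (h : Four σ w) (v : V3) :
    (fU h : Matrix Z3 Z3 F) * P3 w v =
      ph w (-(v.1 * v.2)) • (P3 w (-v.2, v.1) * (fU h : Matrix Z3 Z3 F)) := by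
  ext i j
  rw [Matrix.smul_apply, smul_eq_mul, Matrix.mul_apply, Matrix.mul_apply, P3_eq, P3_eq,
    Finset.sum_eq_single (j + v.1), Finset.sum_eq_single (i + v.2)]
  · simp only [mono_apply, coe_fU, Equiv.coe_addRight, add_neg_cancel_right, if_true, ← h.ph_add]
    exact congrArg (ph w) (by ring)
  · intro k _ hk
    rw [mono_apply, if_neg, zero_mul]
    intro e
    exact hk (by simp [e])
  · simp
  · intro k _ hk; simp [mono_apply, hk]
  · simp

lemma fU_mem_N3 (h : Four σ w) : fU h ∈ N3 w :=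
  h.P3_good.mem_monNorm fun v => ⟨_, _, fU_mul_P3 h v⟩

/-- A column with a zero entry has a single non-zero entry. -/
lemma Four.weight (h : Four σ w) {g : GL Z3 F} (hg : g ∈ UU Z3 σ) (j : Z3)
    (hz : ∃ k, (g : Matrix Z3 Z3 F) k j = 0) :
    ∃ i, (g : Matrix Z3 Z3 F) i j ≠ 0 ∧ ∀ k, k ≠ i → (g : Matrix Z3 Z3 F) k j = 0 := by
  classical
  have h1 := congrFun (congrFun ((mem_UU_iff σ g).1 hg) j) j
  rw [Matrix.mul_apply, sum_three, Matrix.one_apply_eq] at h1
  simp only [Matrix.transpose_apply, Matrix.map_apply] at h1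
  set x := fun k : Z3 => (g : Matrix Z3 Z3 F) k j
  have hx : ∀ k, x k * σ (x k) = if x k = 0 then 0 else 1 := by
    intro k
    split_ifs with e
    · simp [e]
    · obtain ⟨a, ha⟩ := h.all _ e
      rw [ha, h.σ_ph, ← h.ph_add, add_neg_cancel, ph_zero]
  change x 0 * σ (x 0) + x 1 * σ (x 1) + x 2 * σ (x 2) = 1 at h1
  rw [hx, hx, hx] at h1
  obtain ⟨k₀, hk₀⟩ := hz
  change x k₀ = 0 at hk₀
  have hall : ∀ k : Z3, k = 0 ∨ k = 1 ∨ k = 2 := by decide
  by_cases e0 : x 0 = 0 <;> by_cases e1 : x 1 = 0 <;> by_cases e2 : x 2 = 0 <;>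
    simp [e0, e1, e2, h.add_self] at h1
  · exact ⟨2, e2, fun k hk => by rcases hall k with rfl | rfl | rfl <;> first | exact e0 | exact e1 | exact absurd rfl hk⟩
  · exact ⟨1, e1, fun k hk => by rcases hall k with rfl | rfl | rfl <;> first | exact e0 | exact e2 | exact absurd rfl hk⟩
  · exact ⟨0, e0, fun k hk => by rcases hall k with rfl | rfl | rfl <;> first | exact e1 | exact e2 | exact absurd rfl hk⟩
  · rcases hall k₀ with rfl | rfl | rfl <;> contradiction

/-- Columns with a single non-zero entry lie in distinct rows. -/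
lemma Four.row_zero {g : GL Z3 F} (hg : g ∈ UU Z3 σ) {i j l : Z3} (hjl : j ≠ l)
    (hi : (g : Matrix Z3 Z3 F) i j ≠ 0) (hz : ∀ k, k ≠ i → (g : Matrix Z3 Z3 F) k j = 0) :
    (g : Matrix Z3 Z3 F) i l = 0 := by
  have h1 := congrFun (congrFun ((mem_UU_iff σ g).1 hg) j) l
  rw [Matrix.mul_apply, Matrix.one_apply_ne hjl, Finset.sum_eq_single i] at h1
  · simpa [hi] using h1
  · intro k _ hk; simp [hz k hk]
  · simp

/-- A first column with a single non-zero entry forces a monomial matrix. -/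
lemma Four.exists_mono (h : Four σ w) {g : GL Z3 F} (hg : g ∈ UU Z3 σ)
    (hz : ∃ k, (g : Matrix Z3 Z3 F) k 0 = 0) : ∃ π f, g = mU h π f := by
  obtain ⟨i₀, hi₀, hz₀⟩ := h.weight hg 0 hz
  have hcol : ∀ j, ∃ i a, (g : Matrix Z3 Z3 F) i j = ph w a ∧
      ∀ k, k ≠ i → (g : Matrix Z3 Z3 F) k j = 0 := by
    intro j
    obtain ⟨i, hi, hzj⟩ : ∃ i, (g : Matrix Z3 Z3 F) i j ≠ 0 ∧
        ∀ k, k ≠ i → (g : Matrix Z3 Z3 F) k j = 0 := by
      rcases eq_or_ne j 0 with rfl | hj
      · exact ⟨i₀, hi₀, hz₀⟩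
      · exact h.weight hg j ⟨i₀, Four.row_zero hg (Ne.symm hj) hi₀ hz₀⟩
    obtain ⟨a, ha⟩ := h.all _ hi
    exact ⟨i, a, ha, hzj⟩
  choose p a hp hzp using hcol
  have hinj : Function.Injective p := fun j l e => by
    by_contra hjl
    have := Four.row_zero hg hjl (by rw [hp]; exact h.ph_ne_zero _) (hzp j)
    rw [e, hp] at this
    exact h.ph_ne_zero _ this
  refine ⟨Equiv.ofBijective p (Finite.injective_iff_bijective.1 hinj), a,
    Units.ext (Matrix.ext fun i j => ?_)⟩
  rw [coe_mU, mono_apply, Equiv.ofBijective_apply]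
  split_ifs with e
  · rw [e, hp]
  · exact hzp j i e

/-- Every isometry permutes the lines. -/
theorem UU_le_N3 (h : Four σ w) : UU Z3 σ ≤ N3 w := by
  intro g hg
  by_cases hz : ∃ k, (g : Matrix Z3 Z3 F) k 0 = 0
  · obtain ⟨π, f, rfl⟩ := h.exists_mono hg hz
    exact mU_mem_N3 h π f
  · push Not at hz
    choose a ha using fun k => h.all _ (hz k)
    set g' := fU h * mU h 1 (fun k => - a k) * g with hg'
    have hg'U : g' ∈ UU Z3 σ := mul_mem (mul_mem (fU_mem_UU h) (mU_mem_UU h _ _)) hg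
    have hcol : ∀ k : Z3, ((mU h 1 (fun k => - a k) * g : GL Z3 F) : Matrix Z3 Z3 F) k 0 = 1 := by
      intro k
      rw [Units.val_mul, Matrix.mul_apply, Finset.sum_eq_single k]
      · rw [coe_mU, mono_apply, Equiv.Perm.one_apply, if_pos rfl, ha, ← h.ph_add, neg_add_cancel,
          ph_zero]
      · intro l _ hl; simp [mono_apply, Ne.symm hl]
      · simp
    have h1 : (g' : Matrix Z3 Z3 F) 1 0 = 0 := by
      rw [hg', mul_assoc, Units.val_mul, Matrix.mul_apply]
      simp only [hcol, coe_fU, mul_one, one_mul]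
      simpa using h.sum_ph 1
    obtain ⟨π, f, e⟩ := h.exists_mono hg'U ⟨1, h1⟩
    have : g = (fU h * mU h 1 (fun k => - a k))⁻¹ * g' := by rw [hg', inv_mul_cancel_left]
    rw [this, e]
    exact mul_mem (inv_mem (mul_mem (fU_mem_N3 h) (mU_mem_N3 h _ _))) (mU_mem_N3 h _ _)

/-- The action on the labels in dimension three. -/
noncomputable def act3 (h : Four σ w) : N3 w →* Equiv.Perm V3 := h.P3_good.act

lemma act3_fU (h : Four σ w) (v : V3) : act3 h ⟨fU h, fU_mem_N3 h⟩ v = (-v.2, v.1) :=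
  h.P3_good.act_apply _ (fU_mul_P3 h v)

/-- The quadratic diagonal matrix. -/
def qU (h : Four σ w) : GL Z3 F := mU h 1 (fun j => j * j)

lemma qU_mul_P3 (h : Four σ w) (v : V3) :
    (qU h : Matrix Z3 Z3 F) * P3 w v =
      ph w (v.1 * v.1) • (P3 w (v.1, v.2 - v.1) * (qU h : Matrix Z3 Z3 F)) := by
  rw [qU, coe_mU, P3_eq, P3_eq, h.mono_mul, h.mono_mul, h.mono_smul]
  congr 1
  funext j
  have : ∀ j a b : Z3, (j + a) * (j + a) + b * j = a * a + ((b - a) * j + j * j) := by decide
  simpa using this j v.1 v.2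

lemma qU_mem_N3 (h : Four σ w) : qU h ∈ N3 w := mU_mem_N3 h _ _

lemma act3_qU (h : Four σ w) (v : V3) : act3 h ⟨qU h, qU_mem_N3 h⟩ v = (v.1, v.2 - v.1) :=
  h.P3_good.act_apply _ (qU_mul_P3 h v)

lemma fU_parity (h : Four σ w) : Commute (fU h) (mU h (Equiv.neg Z3) 0) := by
  rw [← fU_sq]
  exact (Commute.refl _).mul_right (Commute.refl _)

lemma qU_parity (h : Four σ w) : Commute (qU h) (mU h (Equiv.neg Z3) 0) := by
  show qU h * _ = _ * qU h
  rw [qU, mU_mul, mU_mul]
  congr 1
  funext j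
  simp

end CfsgLib.Geometric.SUNine.Two
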