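import Cfsg.Agent.Lib.Geometric.SUNine.Two.Dim3

/-!
The normaliser of the Pauli group in dimension nine over the field of four elements: its action on
the labels, explicit elements, transitivity and the transvections.
-/

set_option autoImplicit false
set_option linter.unusedSectionVars false

namespace CfsgLib.Geometric.SUNine.Two

open Matrix
open CfsgLib.Geometric.SLNine

variable {F : Type*} [Field F] {σ : F ≃+* F} {w : F}

local notation "Z3" => ZMod 3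

lemma GL_smul_one {ι : Type} [Fintype ι] [DecidableEq ι] (h : Four σ w) (c : Z3) :
    mono w (1 : Equiv.Perm ι) (fun _ => c) = ph w c • (1 : Matrix ι ι F) := by
  rw [← mono_one (w := w), h.mono_smul]
  simp

/-- The scalar matrices. -/
def zU {ι : Type} [Fintype ι] [DecidableEq ι] (h : Four σ w) (c : Z3) : GL ι F :=
  mU h 1 (fun _ => c)

lemma coe_zU {ι : Type} [Fintype ι] [DecidableEq ι] (h : Four σ w) (c : Z3) :
    ((zU h c : GL ι F) : Matrix ι ι F) = ph w c • 1 := GL_smul_one h c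

lemma zU_comm {ι : Type} [Fintype ι] [DecidableEq ι] (h : Four σ w) (c : Z3) (g : GL ι F) :
    zU h c * g = g * zU h c :=
  Units.ext (by rw [Units.val_mul, Units.val_mul, coe_zU, smul_one_mul, mul_smul_comm, mul_one])

lemma zU_add {ι : Type} [Fintype ι] [DecidableEq ι] (h : Four σ w) (a b : Z3) :
    (zU h (a + b) : GL ι F) = zU h a * zU h b := by
  rw [zU, zU, zU, mU_mul, one_mul]

lemma zU_zero {ι : Type} [Fintype ι] [DecidableEq ι] (h : Four σ w) : (zU h 0 : GL ι F) = 1 :=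
  Units.ext (by rw [coe_zU, ph_zero, one_smul, Units.val_one])

lemma zU_mem (h : Four σ w) (c : Z3) : (zU h c : GL J9 F) ∈ SU J9 σ :=
  mU_mem_SU h _ (by rw [Fintype.sum_prod_type]; simp only [sum_three]; revert c; decide)

/-- The Pauli matrices in dimension nine as units. -/
def tU (h : Four σ w) (v : V9) : GL J9 F :=
  mU h ((Equiv.addRight v.1.1).prodCongr (Equiv.addRight v.2.1))
    (fun j => v.1.2 * j.1 + v.2.2 * j.2)

lemma coe_tU (h : Four σ w) (v : V9) : (tU h v : Matrix J9 J9 F) = T9 w v := (h.T9_eq v).symm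

lemma tU_mem (h : Four σ w) (v : V9) : tU h v ∈ SU J9 σ :=
  mU_mem_SU h _ (by rw [Fintype.sum_prod_type]; simp only [sum_three]; revert v; decide)

lemma tU_mul (h : Four σ w) (u v : V9) :
    tU h u * tU h v = zU h (u.1.2 * v.1.1 + u.2.2 * v.2.1) * tU h (u + v) := by
  rw [tU, tU, tU, zU, mU_mul, mU_mul, one_mul]
  congr 1
  · ext j <;> simp [add_comm, add_left_comm]
  · funext j; simp; ring

lemma tU_zero (h : Four σ w) : tU h 0 = 1 := by
  refine Units.ext ?_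
  rw [tU, coe_mU, Units.val_one, ← mono_one (w := w)]
  congr 1
  · ext j <;> simp
  · funext j; simp

lemma tU_comm (h : Four σ w) (u v : V9) :
    tU h u * tU h v = zU h (B9 u v) * (tU h v * tU h u) := by
  rw [tU_mul, tU_mul, ← mul_assoc, ← zU_add, add_comm v u]
  congr 2
  simp only [B9, B3]
  ring

lemma tU_conj (h : Four σ w) (u v : V9) :
    tU h u * tU h v * (tU h u)⁻¹ = zU h (B9 u v) * tU h v := by
  rw [tU_comm, mul_assoc, mul_assoc, mul_inv_cancel, mul_one]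

lemma B9_add_right (u v x : V9) : B9 u (v + x) = B9 u v + B9 u x := by
  simp only [B9, B3, Prod.fst_add, Prod.snd_add]; ring

lemma B9_add_left (u v x : V9) : B9 (u + v) x = B9 u x + B9 v x := by
  simp only [B9, B3, Prod.fst_add, Prod.snd_add]; ring

lemma B9_swap (u v : V9) : B9 u v = - B9 v u := by
  simp only [B9, B3]; ring

lemma B9_self (u : V9) : B9 u u = 0 := by
  simp only [B9, B3]; ring

lemma exists_B9 {u : V9} (hu : u ≠ 0) (c : Z3) : ∃ r, B9 r u = c := by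
  obtain ⟨⟨a, b⟩, ⟨a', b'⟩⟩ := u
  have key : ∀ a b c : Z3, (a ≠ 0 ∨ b ≠ 0) → ∃ p q : Z3, q * a - p * b = c := by decide
  rcases eq_or_ne ((a, b) : V3) 0 with e | e
  · have e' : a' ≠ 0 ∨ b' ≠ 0 := by
      by_contra hcon
      push Not at hcon
      exact hu (Prod.ext e (Prod.ext hcon.1 hcon.2))
    obtain ⟨p, q, hpq⟩ := key a' b' c e'
    refine ⟨(0, (p, q)), ?_⟩
    simpa [B9, B3] using hpq
  · obtain ⟨p, q, hpq⟩ := key a b c (by
      by_contra hcon
      push Not at hcon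
      exact e (Prod.ext hcon.1 hcon.2))
    refine ⟨((p, q), 0), ?_⟩
    simpa [B9, B3] using hpq

lemma T9_good (h : Four σ w) : GoodFam (T9 w) where
  inj u v c e := by
    rw [h.T9_eq, h.T9_eq] at e
    have hc : c ≠ 0 := by
      rintro rfl
      have := congrFun (congrFun e ((v.1.1, v.2.1))) 0
      simp [mono_apply, Prod.ext_iff] at this
      exact h.ph_ne_zero _ this
    obtain ⟨a, rfl⟩ := h.all c hc
    rw [h.mono_smul] at e
    obtain ⟨e1, e2⟩ := h.mono_inj e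
    have e1' := Equiv.congr_fun e1 0
    simp [Prod.ext_iff] at e1'
    have a0 : a = 0 := by simpa using (congrFun e2 0).symm
    exact Prod.ext (Prod.ext e1'.1 (by simpa [a0] using congrFun e2 (1, 0)))
      (Prod.ext e1'.2 (by simpa [a0] using congrFun e2 (0, 1)))
  unit v := by rw [← coe_tU h]; exact (tU h v).isUnit

open Classical in
/-- The label of the image of `v` under conjugation by `g`. -/
noncomputable def lab (h : Four σ w) (g : GL J9 F) (v : V9) : V9 :=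
  if hg : g ∈ N9 w then (T9_good h).act ⟨g, hg⟩ v else v

lemma lab_spec (h : Four σ w) {g : GL J9 F} (hg : g ∈ N9 w) (v : V9) :
    ∃ c, g * tU h v * g⁻¹ = zU h c * tU h (lab h g v) := by
  obtain ⟨c, hc⟩ := (T9_good h).act_spec ⟨g, hg⟩ v
  have hc0 := (T9_good h).coeff_ne_zero hc
  obtain ⟨a, rfl⟩ := h.all c hc0
  refine ⟨a, ?_⟩
  rw [mul_inv_eq_iff_eq_mul]
  refine Units.ext ?_
  rw [lab, dif_pos hg]
  simp only [Units.val_mul, coe_tU, coe_zU, smul_mul_assoc, one_mul]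
  exact hc

lemma lab_eq (h : Four σ w) {g : GL J9 F} (hg : g ∈ N9 w) {v u : V9} {c : Z3}
    (e : g * tU h v * g⁻¹ = zU h c * tU h u) : lab h g v = u := by
  rw [lab, dif_pos hg]
  refine (T9_good h).act_apply ⟨g, hg⟩ (c := ph w c) ?_
  have e' := congrArg Units.val (mul_inv_eq_iff_eq_mul.1 e)
  simpa [coe_tU, coe_zU] using e'

lemma mem_N9 (h : Four σ w) {g : GL J9 F}
    (hg : ∀ v, ∃ u c, g * tU h v * g⁻¹ = zU h c * tU h u) : g ∈ N9 w := by
  refine (T9_good h).mem_monNorm fun v => ?_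
  obtain ⟨u, c, e⟩ := hg v
  refine ⟨u, ph w c, ?_⟩
  have e' := congrArg Units.val (mul_inv_eq_iff_eq_mul.1 e)
  simpa [coe_tU, coe_zU] using e'

lemma lab_mul (h : Four σ w) {g g' : GL J9 F} (hg : g ∈ N9 w) (hg' : g' ∈ N9 w) (v : V9) :
    lab h (g * g') v = lab h g (lab h g' v) := by
  rw [lab, lab, lab, dif_pos hg, dif_pos hg', dif_pos (mul_mem hg hg')]
  rw [← Equiv.Perm.mul_apply, ← map_mul]
  rfl

lemma lab_inv (h : Four σ w) {g : GL J9 F} (hg : g ∈ N9 w) (v : V9) :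
    lab h g⁻¹ (lab h g v) = v := by
  rw [← lab_mul h (inv_mem hg) hg, inv_mul_cancel, lab, dif_pos (one_mem _)]
  exact (Equiv.congr_fun (map_one (T9_good h).act) v : _)

lemma lab_injective (h : Four σ w) {g : GL J9 F} (hg : g ∈ N9 w) : Function.Injective (lab h g) :=
  fun a b e => by rw [← lab_inv h hg a, e, lab_inv h hg]

lemma tU_mem_N9 (h : Four σ w) (u : V9) : tU h u ∈ N9 w :=
  mem_N9 h fun v => ⟨v, B9 u v, tU_conj h u v⟩

lemma lab_tU (h : Four σ w) (u v : V9) : lab h (tU h u) v = v :=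
  lab_eq h (tU_mem_N9 h u) (tU_conj h u v)

lemma zU_mem_N9 (h : Four σ w) (c : Z3) : (zU h c : GL J9 F) ∈ N9 w :=
  mem_N9 h fun v => ⟨v, 0, by rw [zU_comm, mul_inv_cancel_right, zU_zero, one_mul]⟩

lemma lab_zU (h : Four σ w) (c : Z3) (v : V9) : lab h (zU h c : GL J9 F) v = v :=
  lab_eq h (zU_mem_N9 h c) (c := 0) (by rw [zU_comm, mul_inv_cancel_right, zU_zero, one_mul])

lemma lab_add (h : Four σ w) {g : GL J9 F} (hg : g ∈ N9 w) (u v : V9) :
    lab h g (u + v) = lab h g u + lab h g v := by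
  obtain ⟨a, ha⟩ := lab_spec h hg u
  obtain ⟨b, hb⟩ := lab_spec h hg v
  set k : Z3 := u.1.2 * v.1.1 + u.2.2 * v.2.1
  set k' : Z3 := (lab h g u).1.2 * (lab h g v).1.1 + (lab h g u).2.2 * (lab h g v).2.1
  refine lab_eq h hg (c := a + b + k' - k) ?_
  have e1 : tU h (u + v) = zU h (-k) * (tU h u * tU h v) := by
    rw [tU_mul, ← mul_assoc, ← zU_add, neg_add_cancel, zU_zero, one_mul]
  calc g * tU h (u + v) * g⁻¹ = (g * zU h (-k)) * (tU h u * tU h v) * g⁻¹ := by rw [e1]; group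
    _ = zU h (-k) * ((g * tU h u * g⁻¹) * (g * tU h v * g⁻¹)) := by rw [← zU_comm]; group
    _ = zU h (-k) * (zU h a * (zU h b * tU h (lab h g u)) * tU h (lab h g v)) := by
        rw [ha, hb, zU_comm h b (tU h (lab h g u))]; group
    _ = zU h (-k) * (zU h a * zU h b * (zU h k' * tU h (lab h g u + lab h g v))) := by
        rw [← tU_mul]; group
    _ = _ := by
        rw [← zU_add, ← mul_assoc, ← mul_assoc, ← zU_add, ← zU_add]
        congr 2
        ring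

lemma lab_zero (h : Four σ w) {g : GL J9 F} (hg : g ∈ N9 w) : lab h g 0 = 0 := by
  have := lab_add h hg 0 0
  rw [add_zero] at this
  exact left_eq_add.1 this

lemma lab_neg (h : Four σ w) {g : GL J9 F} (hg : g ∈ N9 w) (v : V9) :
    lab h g (-v) = - lab h g v := by
  rw [eq_neg_iff_add_eq_zero, ← lab_add h hg, neg_add_cancel, lab_zero h hg]

lemma lab_B9 (h : Four σ w) {g : GL J9 F} (hg : g ∈ N9 w) (u v : V9) :
    B9 (lab h g u) (lab h g v) = B9 u v := by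
  obtain ⟨a, ha⟩ := lab_spec h hg u
  obtain ⟨b, hb⟩ := lab_spec h hg v
  set U := tU h (lab h g u)
  set V := tU h (lab h g v)
  have e : (zU h a * U) * (zU h b * V) = zU h (B9 u v) * ((zU h b * V) * (zU h a * U)) := by
    rw [← ha, ← hb]
    calc g * tU h u * g⁻¹ * (g * tU h v * g⁻¹) = g * (tU h u * tU h v) * g⁻¹ := by group
      _ = g * zU h (B9 u v) * (tU h v * tU h u) * g⁻¹ := by rw [tU_comm]; group
      _ = _ := by rw [← zU_comm]; group
  have e1 : (zU h a * U) * (zU h b * V) = zU h a * zU h b * (U * V) := by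
    rw [mul_assoc (zU h a), ← mul_assoc U, ← zU_comm h b U]; group
  have e2 : (zU h b * V) * (zU h a * U) = zU h a * zU h b * (V * U) := by
    rw [mul_assoc (zU h b), ← mul_assoc V, ← zU_comm h a V, mul_assoc (zU h a), ← mul_assoc,
      ← mul_assoc, ← mul_assoc, zU_comm h b (zU h a : GL J9 F)]
  rw [e1, e2, tU_comm, ← mul_assoc (zU h (B9 u v)), ← mul_assoc, ← mul_assoc, ← mul_assoc,
    mul_assoc _ V U, mul_assoc _ V U] at e
  have e3 := mul_right_cancel e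
  simp only [← zU_add] at e3
  have e4 : (a + b + B9 (lab h g u) (lab h g v) : Z3) = B9 u v + (a + b) := by
    have := congrArg (fun x : GL J9 F => (x : Matrix J9 J9 F) 0 0) e3
    exact h.ph_inj (by simpa [coe_zU] using this)
  linear_combination e4

/-- Kronecker products of isometries. -/
lemma kron_mem (h : Four σ w) {a b : GL Z3 F} (ha : a ∈ UU Z3 σ) (hb : b ∈ UU Z3 σ) :
    kronHom (a, b) ∈ SU J9 σ := by
  refine ⟨(mem_UU_iff σ _).2 ?_, Units.ext ?_⟩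
  · have e : ((kronHom (a, b) : GL J9 F) : Matrix J9 J9 F).map σ =
        Matrix.kronecker ((a : Matrix Z3 Z3 F).map σ) ((b : Matrix Z3 Z3 F).map σ) := by
      ext i j; simp
    rw [e, coe_kronHom]
    simp only [Matrix.kronecker]
    rw [← Matrix.kroneckerMap_transpose, ← Matrix.mul_kronecker_mul,
      (mem_UU_iff σ a).1 ha, (mem_UU_iff σ b).1 hb, Matrix.one_kronecker_one]
  · rw [Matrix.GeneralLinearGroup.val_det_apply, coe_kronHom, Matrix.det_kronecker]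
    have h3 : ∀ x : GL Z3 F, (x : Matrix Z3 Z3 F).det ^ 3 = 1 := fun x => by
      obtain ⟨c, hc⟩ := h.all _ ((Matrix.isUnit_iff_isUnit_det _).1 x.isUnit).ne_zero
      rw [hc, ph, ← pow_mul, mul_comm, pow_mul, h.root.pow_eq_one, one_pow]
    rw [ZMod.card, h3, h3, one_mul, Units.val_one]

open Classical in
/-- The label of the image of `v` in dimension three. -/
noncomputable def lab3 (h : Four σ w) (a : GL Z3 F) (v : V3) : V3 :=
  if ha : a ∈ N3 w then act3 h ⟨a, ha⟩ v else v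

lemma lab3_spec (h : Four σ w) {a : GL Z3 F} (ha : a ∈ N3 w) (v : V3) :
    ∃ c, (a : Matrix Z3 Z3 F) * P3 w v =
      ph w c • (P3 w (lab3 h a v) * (a : Matrix Z3 Z3 F)) := by
  obtain ⟨c, hc⟩ := h.P3_good.act_spec ⟨a, ha⟩ v
  obtain ⟨d, rfl⟩ := h.all c (h.P3_good.coeff_ne_zero hc)
  refine ⟨d, ?_⟩
  rw [lab3, dif_pos ha]
  exact hc

lemma lab3_mul (h : Four σ w) {a b : GL Z3 F} (ha : a ∈ N3 w) (hb : b ∈ N3 w) (v : V3) :
    lab3 h (a * b) v = lab3 h a (lab3 h b v) := by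
  rw [lab3, lab3, lab3, dif_pos ha, dif_pos hb, dif_pos (mul_mem ha hb)]
  rw [← Equiv.Perm.mul_apply, ← map_mul]
  rfl

lemma lab3_eq (h : Four σ w) {a : GL Z3 F} (ha : a ∈ N3 w) {v u : V3} {c : F}
    (e : (a : Matrix Z3 Z3 F) * P3 w v = c • (P3 w u * (a : Matrix Z3 Z3 F))) : lab3 h a v = u := by
  rw [lab3, dif_pos ha]
  exact h.P3_good.act_apply _ e

lemma lab3_one (h : Four σ w) (v : V3) : lab3 h (1 : GL Z3 F) v = v :=
  lab3_eq h (one_mem _) (c := 1) (by simp)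

lemma lab3_fU (h : Four σ w) (v : V3) : lab3 h (fU h) v = (-v.2, v.1) :=
  lab3_eq h (fU_mem_N3 h) (fU_mul_P3 h v)

lemma lab3_qU (h : Four σ w) (v : V3) : lab3 h (qU h) v = (v.1, v.2 - v.1) :=
  lab3_eq h (qU_mem_N3 h) (qU_mul_P3 h v)

lemma qU_mem_UU (h : Four σ w) : qU h ∈ UU Z3 σ := mU_mem_UU h _ _

lemma kron_mem_N (h : Four σ w) {a b : GL Z3 F} (ha : a ∈ UU Z3 σ) (hb : b ∈ UU Z3 σ) :
    kronHom (a, b) ∈ N9 w ⊓ SU J9 σ ∧
      ∀ v, lab h (kronHom (a, b)) v = (lab3 h a v.1, lab3 h b v.2) := by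
  have key : ∀ v, ∃ c, kronHom (a, b) * tU h v * (kronHom (a, b))⁻¹ =
      zU h c * tU h (lab3 h a v.1, lab3 h b v.2) := by
    intro v
    obtain ⟨c, hc⟩ := lab3_spec h (UU_le_N3 h ha) v.1
    obtain ⟨d, hd⟩ := lab3_spec h (UU_le_N3 h hb) v.2
    refine ⟨c + d, mul_inv_eq_iff_eq_mul.2 (Units.ext ?_)⟩
    simp only [Units.val_mul, coe_kronHom, coe_tU, coe_zU, T9, smul_mul_assoc, one_mul]
    rw [← Matrix.mul_kronecker_mul, hc, hd, Matrix.smul_kronecker, Matrix.kronecker_smul, smul_smul,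
      h.ph_add, ← Matrix.mul_kronecker_mul]
  have hN : kronHom (a, b) ∈ N9 w := mem_N9 h fun v => ⟨_, (key v).choose, (key v).choose_spec⟩
  exact ⟨⟨hN, kron_mem h ha hb⟩, fun v => lab_eq h hN (key v).choose_spec⟩

/-- The interchange of the factors. -/
def sU (h : Four σ w) : GL J9 F := mU h (Equiv.prodComm Z3 Z3) 0

lemma sU_mem (h : Four σ w) :
    sU h ∈ N9 w ⊓ SU J9 σ ∧ ∀ v, lab h (sU h) v = (v.2, v.1) := by
  have key : ∀ v, sU h * tU h v * (sU h)⁻¹ = zU h 0 * tU h (v.2, v.1) := by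
    intro v
    rw [zU_zero, one_mul, mul_inv_eq_iff_eq_mul, sU, tU, tU, mU_mul, mU_mul]
    congr 1
    funext j
    simp [add_comm]
  have hN : sU h ∈ N9 w := mem_N9 h fun v => ⟨_, _, key v⟩
  exact ⟨⟨hN, mU_mem_SU h _ (by simp)⟩, fun v => lab_eq h hN (key v)⟩

/-- The element mixing the factors. -/
def cU (h : Four σ w) : GL J9 F := mU h 1 (fun j => j.1 * j.2)

lemma cU_mem (h : Four σ w) :
    cU h ∈ N9 w ⊓ SU J9 σ ∧
      ∀ v, lab h (cU h) v = ((v.1.1, v.1.2 + v.2.1), (v.2.1, v.2.2 + v.1.1)) := by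
  have key : ∀ v, cU h * tU h v * (cU h)⁻¹ =
      zU h (v.1.1 * v.2.1) * tU h ((v.1.1, v.1.2 + v.2.1), (v.2.1, v.2.2 + v.1.1)) := by
    intro v
    rw [mul_inv_eq_iff_eq_mul, cU, tU, tU, zU, mU_mul, mU_mul, mU_mul]
    congr 1
    funext j
    simp
    ring
  have hN : cU h ∈ N9 w := mem_N9 h fun v => ⟨_, _, key v⟩
  refine ⟨⟨hN, mU_mem_SU h _ ?_⟩, fun v => lab_eq h hN (key v)⟩
  rw [Fintype.sum_prod_type]
  simp only [sum_three]
  decide

lemma exists_lab3 (h : Four σ w) (v : V3) (hv : v ≠ 0) :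
    ∃ a ∈ UU Z3 σ, lab3 h a (0, 1) = v := by
  have f1 : ∀ a ∈ UU Z3 σ, fU h * a ∈ UU Z3 σ ∧
      lab3 h (fU h * a) (0, 1) = (-(lab3 h a (0, 1)).2, (lab3 h a (0, 1)).1) := fun a ha =>
    ⟨mul_mem (fU_mem_UU h) ha, by rw [lab3_mul h (fU_mem_N3 h) (UU_le_N3 h ha), lab3_fU]⟩
  have q1 : ∀ a ∈ UU Z3 σ, qU h * a ∈ UU Z3 σ ∧ lab3 h (qU h * a) (0, 1) =
      ((lab3 h a (0, 1)).1, (lab3 h a (0, 1)).2 - (lab3 h a (0, 1)).1) := fun a ha =>
    ⟨mul_mem (qU_mem_UU h) ha, by rw [lab3_mul h (qU_mem_N3 h) (UU_le_N3 h ha), lab3_qU]⟩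
  let O : Set V3 := {x | ∃ a ∈ UU Z3 σ, lab3 h a (0, 1) = x}
  have hf : ∀ x ∈ O, (-x.2, x.1) ∈ O := by
    rintro x ⟨a, ha, rfl⟩
    exact ⟨_, (f1 a ha).1, (f1 a ha).2⟩
  have hq : ∀ x ∈ O, (x.1, x.2 - x.1) ∈ O := by
    rintro x ⟨a, ha, rfl⟩
    exact ⟨_, (q1 a ha).1, (q1 a ha).2⟩
  have h01 : ((0, 1) : V3) ∈ O := ⟨1, one_mem _, lab3_one h _⟩
  have h20 : ((2, 0) : V3) ∈ O := hf _ h01
  have h02 : ((0, 2) : V3) ∈ O := hf _ h20
  have h10 : ((1, 0) : V3) ∈ O := hf _ h02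
  have h12 : ((1, 2) : V3) ∈ O := hq _ h10
  have h11 : ((1, 1) : V3) ∈ O := hq _ h12
  have h21 : ((2, 1) : V3) ∈ O := hq _ h20
  have h22 : ((2, 2) : V3) ∈ O := hq _ h21
  have key : ∀ v : V3, v = 0 ∨ v = (0, 1) ∨ v = (2, 0) ∨ v = (0, 2) ∨ v = (1, 0) ∨ v = (1, 2) ∨
      v = (1, 1) ∨ v = (2, 1) ∨ v = (2, 2) := by decide
  rcases key v with rfl | rfl | rfl | rfl | rfl | rfl | rfl | rfl | rfl
  exacts [absurd rfl hv, h01, h20, h02, h10, h12, h11, h21, h22]

lemma lab3_inv (h : Four σ w) {a : GL Z3 F} (ha : a ∈ N3 w) (v : V3) :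
    lab3 h a⁻¹ (lab3 h a v) = v := by
  rw [← lab3_mul h (inv_mem ha) ha, inv_mul_cancel, lab3_one]

lemma exists_lab3' (h : Four σ w) {u v : V3} (hu : u ≠ 0) (hv : v ≠ 0) :
    ∃ a ∈ UU Z3 σ, lab3 h a u = v := by
  obtain ⟨a, ha, rfl⟩ := exists_lab3 h u hu
  obtain ⟨b, hb, rfl⟩ := exists_lab3 h v hv
  refine ⟨b * a⁻¹, mul_mem hb (inv_mem ha), ?_⟩
  rw [lab3_mul h (UU_le_N3 h hb) (inv_mem (UU_le_N3 h ha)), lab3_inv h (UU_le_N3 h ha)]

/-- The normaliser is transitive on the non-zero labels. -/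
lemma exists_lab (h : Four σ w) {v : V9} (hv : v ≠ 0) :
    ∃ g ∈ N9 w ⊓ SU J9 σ, lab h g ((0, 1), 0) = v := by
  by_cases h2 : v.2 = 0
  · have h1 : v.1 ≠ 0 := fun e => hv (Prod.ext e h2)
    obtain ⟨a, ha, hav⟩ := exists_lab3 h v.1 h1
    obtain ⟨hk, hl⟩ := kron_mem_N h ha (one_mem _)
    exact ⟨_, hk, by rw [hl, hav]; exact Prod.ext rfl ((lab3_one h _).trans h2.symm)⟩
  by_cases h1 : v.1 = 0
  · obtain ⟨a, ha, hav⟩ := exists_lab3 h v.2 h2
    obtain ⟨hk, hl⟩ := kron_mem_N h ha (one_mem _)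
    obtain ⟨hs, hls⟩ := sU_mem h
    refine ⟨sU h * _, mul_mem hs hk, ?_⟩
    rw [lab_mul h hs.1 hk.1, hls, hl, hav]
    exact Prod.ext ((lab3_one h _).trans h1.symm) rfl
  obtain ⟨a, ha, hav⟩ := exists_lab3' h (show ((0, 1) : V3) ≠ 0 by decide) (show ((1, 0) : V3) ≠ 0 by decide)
  obtain ⟨b, hb, hbv⟩ := exists_lab3' h (show ((1, 0) : V3) ≠ 0 by decide) h1
  obtain ⟨c, hc, hcv⟩ := exists_lab3 h v.2 h2
  obtain ⟨hk, hl⟩ := kron_mem_N h ha (one_mem (UU Z3 σ))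
  obtain ⟨hcc, hlc⟩ := cU_mem h
  obtain ⟨hk', hl'⟩ := kron_mem_N h hb hc
  refine ⟨kronHom (b, c) * (cU h * kronHom (a, 1)), mul_mem hk' (mul_mem hcc hk), ?_⟩
  rw [lab_mul h hk'.1 (mul_mem hcc.1 hk.1), lab_mul h hcc.1 hk.1, hl, hav, hlc, hl', lab3_one]
  exact Prod.ext (by simpa using hbv) (by simpa using hcv)

/-- Two labels can be moved to each other together with any phase. -/
lemma exists_conj (h : Four σ w) {u v : V9} (hu : u ≠ 0) (hv : v ≠ 0) (c : Z3) :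
    ∃ g ∈ N9 w ⊓ SU J9 σ, g * tU h u * g⁻¹ = zU h c * tU h v := by
  obtain ⟨a, ha, rfl⟩ := exists_lab h hu
  obtain ⟨b, hb, hbv⟩ := exists_lab h hv
  have hg : b * a⁻¹ ∈ N9 w ⊓ SU J9 σ := mul_mem hb (inv_mem ha)
  have hl : lab h (b * a⁻¹) (lab h a ((0, 1), 0)) = v := by
    rw [lab_mul h hb.1 (inv_mem ha.1), lab_inv h ha.1, hbv]
  obtain ⟨d, hd⟩ := lab_spec h hg.1 (lab h a ((0, 1), 0))
  rw [hl] at hd
  obtain ⟨r, hr⟩ := exists_B9 hv (c - d)
  refine ⟨tU h r * (b * a⁻¹), mul_mem ⟨tU_mem_N9 h r, tU_mem h r⟩ hg, ?_⟩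
  calc tU h r * (b * a⁻¹) * tU h (lab h a ((0, 1), 0)) * (tU h r * (b * a⁻¹))⁻¹
      = tU h r * ((b * a⁻¹) * tU h (lab h a ((0, 1), 0)) * (b * a⁻¹)⁻¹) * (tU h r)⁻¹ := by group
    _ = zU h d * (tU h r * tU h v * (tU h r)⁻¹) := by
        rw [hd, ← mul_assoc, ← zU_comm]; group
    _ = zU h c * tU h v := by
        rw [tU_conj, hr, ← mul_assoc, ← zU_add, add_sub_cancel]

/-- The transvections of the labels are induced. -/
lemma exists_transvection (h : Four σ w) {e : V9} (he : e ≠ 0) :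
    ∃ g ∈ N9 w ⊓ SU J9 σ, ∀ v, lab h g v = v + B9 e v • e := by
  obtain ⟨g, hg, rfl⟩ := exists_lab h he
  obtain ⟨hk, hl⟩ := kron_mem_N h (mul_mem (qU_mem_UU h) (qU_mem_UU h)) (one_mem _)
  set q := kronHom (qU h * qU h, (1 : GL Z3 F))
  have hq : ∀ v, lab h q v = v + B9 ((0, 1), 0) v • ((0, 1), 0) := by
    intro v
    rw [hl, lab3_mul h (qU_mem_N3 h) (qU_mem_N3 h), lab3_qU, lab3_qU, lab3_one]
    obtain ⟨⟨a, b⟩, c, d⟩ := v
    have key : ∀ a b : Z3, b - a - a = b + a := by decide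
    simp [B9, B3, key]
  refine ⟨g * q * g⁻¹, mul_mem (mul_mem hg hk) (inv_mem hg), fun v => ?_⟩
  set x := lab h g⁻¹ v with hx
  have hv : v = lab h g x := by
    have := lab_inv h (inv_mem hg.1) v
    rw [inv_inv] at this
    exact this.symm
  rw [lab_mul h (mul_mem hg.1 hk.1) (inv_mem hg.1), lab_mul h hg.1 hk.1, ← hx, hq, lab_add h hg.1,
    hv, lab_B9 h hg.1]
  congr 1
  set e0 : V9 := ((0, 1), 0)
  have key : ∀ k : Z3, k = 0 ∨ k = 1 ∨ k = -1 := by decide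
  rcases key (B9 e0 x) with hk | hk | hk <;> rw [hk]
  · simp [lab_zero h hg.1]
  · simp
  · rw [neg_one_smul, neg_one_smul, lab_neg h hg.1]

/-- The Pauli group with the scalars. -/
def Rsub (h : Four σ w) : Subgroup (GL J9 F) where
  carrier := {g | ∃ c v, g = zU h c * tU h v}
  one_mem' := ⟨0, 0, by rw [zU_zero, tU_zero, one_mul]⟩
  mul_mem' := by
    rintro _ _ ⟨c, u, rfl⟩ ⟨d, v, rfl⟩
    refine ⟨c + d + (u.1.2 * v.1.1 + u.2.2 * v.2.1), u + v, ?_⟩
    rw [zU_add, zU_add, mul_assoc (zU h c * zU h d), ← tU_mul, mul_assoc, mul_assoc,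
      ← mul_assoc (tU h u), ← zU_comm h d (tU h u), mul_assoc]
  inv_mem' := by
    rintro _ ⟨c, u, rfl⟩
    refine ⟨-c + u.1.2 * u.1.1 + u.2.2 * u.2.1, -u, inv_eq_of_mul_eq_one_left ?_⟩
    rw [mul_assoc, ← mul_assoc (tU h (-u)), ← zU_comm h c (tU h (-u)), mul_assoc, tU_mul,
      neg_add_cancel, tU_zero, mul_one, ← mul_assoc, ← zU_add, ← zU_add, ← zU_zero h]
    congr 1
    simp
    ring

lemma mem_Rsub (h : Four σ w) {g : GL J9 F} : g ∈ Rsub h ↔ ∃ c v, g = zU h c * tU h v := Iff.rfl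

lemma Rsub_le (h : Four σ w) : Rsub h ≤ N9 w ⊓ SU J9 σ := by
  rintro _ ⟨c, v, rfl⟩
  exact mul_mem ⟨zU_mem_N9 h c, zU_mem h c⟩ ⟨tU_mem_N9 h v, tU_mem h v⟩

lemma lab_Rsub (h : Four σ w) {g : GL J9 F} (hg : g ∈ Rsub h) (v : V9) : lab h g v = v := by
  obtain ⟨c, u, rfl⟩ := hg
  rw [lab_mul h (zU_mem_N9 h c) (tU_mem_N9 h u), lab_zU, lab_tU]

/-- An element commuting with all Pauli matrices is scalar. -/
lemma exists_zU (h : Four σ w) {y : GL J9 F} (hy : ∀ v, y * tU h v = tU h v * y) :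
    ∃ c, y = zU h c := by
  have hd : ∀ i j : J9, i ≠ j → (y : Matrix J9 J9 F) i j = 0 := by
    intro i j hij
    obtain ⟨b, hb⟩ : ∃ b : J9, b.1 * i.1 + b.2 * i.2 ≠ b.1 * j.1 + b.2 * j.2 := by
      revert i j; decide
    have e : ((y * tU h ((0, b.1), (0, b.2)) : GL J9 F) : Matrix J9 J9 F) i j =
        ((tU h ((0, b.1), (0, b.2)) * y : GL J9 F) : Matrix J9 J9 F) i j := by rw [hy]
    rw [Units.val_mul, Units.val_mul, tU, coe_mU, Matrix.mul_apply, Matrix.mul_apply,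
      Finset.sum_eq_single j, Finset.sum_eq_single i] at e
    · simp [mono_apply] at e
      by_contra hne
      rw [mul_comm ((y : Matrix J9 J9 F) i j)] at e
      exact hb (h.ph_inj (mul_right_cancel₀ hne e).symm)
    · intro k _ hk; simp [mono_apply, Ne.symm hk]
    · simp
    · intro k _ hk; simp [mono_apply, hk]
    · simp
  have hs : ∀ i : J9, (y : Matrix J9 J9 F) i i = (y : Matrix J9 J9 F) 0 0 := by
    intro i
    have e : ((y * tU h ((i.1, 0), (i.2, 0)) : GL J9 F) : Matrix J9 J9 F) i 0 =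
        ((tU h ((i.1, 0), (i.2, 0)) * y : GL J9 F) : Matrix J9 J9 F) i 0 := by rw [hy]
    rw [Units.val_mul, Units.val_mul, tU, coe_mU, Matrix.mul_apply, Matrix.mul_apply,
      Finset.sum_eq_single i, Finset.sum_eq_single 0] at e
    · simpa [mono_apply, ph_zero, Prod.ext_iff] using e
    · intro k _ hk; simp [hd k 0 hk]
    · simp
    · intro k _ hk; simp [hd i k (Ne.symm hk)]
    · simp
  have hne : (y : Matrix J9 J9 F) 0 0 ≠ 0 := by
    intro e
    have hy0 : (y : Matrix J9 J9 F) = 0 := Matrix.ext fun i j => by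
      rcases eq_or_ne i j with rfl | hij
      · rw [hs, e]; rfl
      · rw [hd i j hij]; rfl
    exact y.isUnit.ne_zero hy0
  obtain ⟨c, hc⟩ := h.all _ hne
  refine ⟨c, Units.ext (Matrix.ext fun i j => ?_)⟩
  rw [coe_zU, Matrix.smul_apply, smul_eq_mul, Matrix.one_apply]
  rcases eq_or_ne i j with rfl | hij
  · rw [hs, hc, if_pos rfl, mul_one]
  · rw [hd i j hij, if_neg hij, mul_zero]

/-- The kernel of the action on the labels. -/
lemma mem_Rsub_of_lab (h : Four σ w) {g : GL J9 F} (hg : g ∈ N9 w) (hl : ∀ v, lab h g v = v) :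
    g ∈ Rsub h := by
  have hsp := fun v => lab_spec h hg v
  choose c hc using hsp
  simp only [hl] at hc
  have hadd : ∀ u v, c (u + v) = c u + c v := fun u v => by
    set k : Z3 := u.1.2 * v.1.1 + u.2.2 * v.2.1
    have e : (g * tU h u * g⁻¹) * (g * tU h v * g⁻¹) = zU h k * (g * tU h (u + v) * g⁻¹) := by
      calc (g * tU h u * g⁻¹) * (g * tU h v * g⁻¹) = g * (tU h u * tU h v) * g⁻¹ := by group
        _ = g * zU h k * tU h (u + v) * g⁻¹ := by rw [tU_mul]; simp only [k]; group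
        _ = _ := by rw [← zU_comm]; group
    rw [hc, hc, hc, mul_assoc (zU h (c u)), ← mul_assoc (tU h u), ← zU_comm h (c v) (tU h u),
      mul_assoc (zU h (c v)), tU_mul, ← mul_assoc, ← mul_assoc, ← mul_assoc] at e
    have e' := congrArg (fun x : GL J9 F => x) (mul_right_cancel e)
    simp only [← zU_add] at e'
    have := congrArg (fun x : GL J9 F => (x : Matrix J9 J9 F) 0 0) e'
    have e4 : c u + c v + k = k + c (u + v) := h.ph_inj (by simpa [coe_zU] using this)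
    linear_combination -e4
  let cl : V9 →+ Z3 := AddMonoidHom.mk' c hadd
  set u : V9 := ((- c ((0, 1), 0), c ((1, 0), 0)), (- c (0, (0, 1)), c (0, (1, 0)))) with hu
  have hB : ∀ v, B9 u v = c v := fun v => by
    have hv : v = v.1.1.val • ((1, 0), 0) + v.1.2.val • ((0, 1), 0) +
        v.2.1.val • (0, (1, 0)) + v.2.2.val • (0, (0, 1)) := by
      simp [Prod.ext_iff, nsmul_eq_mul, ZMod.natCast_zmod_val]
    change _ = cl v
    conv_rhs => rw [hv]
    rw [map_add, map_add, map_add, map_nsmul, map_nsmul, map_nsmul, map_nsmul]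
    simp only [nsmul_eq_mul, ZMod.natCast_zmod_val]
    show B9 u v = v.1.1 * c ((1, 0), 0) + v.1.2 * c ((0, 1), 0) + v.2.1 * c (0, (1, 0)) +
      v.2.2 * c (0, (0, 1))
    simp [hu, B9, B3]
    ring
  obtain ⟨d, hd⟩ := exists_zU h (y := (tU h u)⁻¹ * g) fun v => by
    calc (tU h u)⁻¹ * g * tU h v = (tU h u)⁻¹ * (g * tU h v * g⁻¹) * g := by group
      _ = (tU h u)⁻¹ * (tU h u * tU h v * (tU h u)⁻¹) * g := by rw [hc, tU_conj, hB]
      _ = tU h v * ((tU h u)⁻¹ * g) := by group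
  exact ⟨d, u, by rw [zU_comm, ← hd, mul_inv_cancel_left]⟩

end CfsgLib.Geometric.SUNine.Two
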