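import Cfsg.Agent.Lib.Geometric.SUNine.Two.Kernel

/-!
Over the field of four elements: the subgroups of `M` used by the abstract arguments, and the
centraliser of the parity of the first factor.
-/

set_option autoImplicit false
set_option linter.unusedSectionVars false

namespace CfsgLib.Geometric.SUNine.Two

open Matrix
open CfsgLib.Geometric.SLNine

variable {F : Type*} [Field F] {σ : F ≃+* F} {w : F}

local notation "Z3" => ZMod 3

/-- The standing hypotheses. -/
structure Ctx (h : Four σ w) (M : Subgroup (GL J9 F)) : Prop where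
  le : M ≤ SU J9 σ
  norm_le : N9 w ⊓ SU J9 σ ≤ M
  full : ¬ Full h M

variable (h : Four σ w) (M : Subgroup (GL J9 F))

/-- The scalars. -/
def scal : Subgroup (GL J9 F) where
  carrier := {g | ∃ c, g = zU h c}
  one_mem' := ⟨0, (zU_zero h).symm⟩
  mul_mem' := by rintro _ _ ⟨a, rfl⟩ ⟨b, rfl⟩; exact ⟨a + b, (zU_add h a b).symm⟩
  inv_mem' := by
    rintro _ ⟨a, rfl⟩
    exact ⟨-a, inv_eq_of_mul_eq_one_right (by rw [← zU_add, add_neg_cancel, zU_zero])⟩

/-- The normaliser in `M`. -/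
def NM (w : F) (M : Subgroup (GL J9 F)) : Subgroup M := (N9 w).subgroupOf M

/-- The Pauli group with the scalars in `M`. -/
def RM : Subgroup M := (Rsub h).subgroupOf M

/-- The scalars in `M`. -/
def ZM : Subgroup M := (scal h).subgroupOf M

/-- The part of the Pauli group commuting with the parity of the first factor. -/
def RpM : Subgroup M := (Rsub h ⊓ Subgroup.centralizer {tT h}).subgroupOf M

/-- The kernel of the action of the centraliser of the parity of the first factor. -/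
def KM : Subgroup M where
  carrier := {g | Commute (g : GL J9 F) (tT h) ∧ cZ ((g : GL J9 F) : Matrix J9 J9 F) = 1}
  one_mem' := ⟨Commute.one_left _, by simp [cZ_one]⟩
  mul_mem' := by
    rintro a b ⟨ha, ha'⟩ ⟨hb, hb'⟩
    refine ⟨by simpa using ha.mul_left hb, ?_⟩
    rw [Subgroup.coe_mul, cZ_mul' h ha hb, ha', hb', mul_one]
  inv_mem' := by
    rintro a ⟨ha, ha'⟩
    refine ⟨by simpa using ha.inv_left, ?_⟩
    have := cZ_mul' h ha.inv_left ha
    rw [inv_mul_cancel, Units.val_one, cZ_one, ha', mul_one] at this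
    simpa using this.symm

variable {M}

lemma mem_center_of_scal {g : M} (hg : g ∈ ZM h M) : g ∈ Subgroup.center M := by
  obtain ⟨c, hc⟩ := Subgroup.mem_subgroupOf.1 hg
  exact Subgroup.mem_center_iff.2 fun x => Subtype.ext (by simpa [hc] using (zU_comm h c x.1).symm)

lemma zT_cube (c : Z3) (v : V9) : (zU h c * tU h v) ^ 3 = 1 := by
  have e3 : ∀ x : V9, x + x + x = 0 := fun x => by
    have key : ∀ a : Z3, a + a + a = 0 := by decide
    ext <;> exact key _
  rw [(show Commute (zU h c) (tU h v) from zU_comm h c _).mul_pow, pow_three', pow_three',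
    ← zU_add, ← zU_add, tU_mul, mul_assoc, tU_mul, ← mul_assoc, ← mul_assoc, ← zU_add, ← zU_add, e3,
    tU_zero, mul_one, ← zU_zero h]
  congr 1
  simp only [Prod.fst_add, Prod.snd_add]
  have key : ∀ c a b a' b' : Z3,
      c + c + c + (b * a + b' * a') + ((b + b) * a + (b' + b') * a') = 0 := by decide
  exact key _ _ _ _ _

lemma cube_RM {r : M} (hr : r ∈ RM h M) : r ^ 3 = 1 := by
  obtain ⟨c, v, hv⟩ := Subgroup.mem_subgroupOf.1 hr
  exact Subtype.ext (by simpa [hv] using zT_cube h c v)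

lemma comm_RM {r s : M} (hr : r ∈ RM h M) (hs : s ∈ RM h M) :
    r * s * r⁻¹ * s⁻¹ ∈ ZM h M := by
  obtain ⟨c, u, hu⟩ := Subgroup.mem_subgroupOf.1 hr
  obtain ⟨d, v, hv⟩ := Subgroup.mem_subgroupOf.1 hs
  refine Subgroup.mem_subgroupOf.2 ⟨B9 u v, ?_⟩
  simp only [Subgroup.coe_mul, Subgroup.coe_inv, hu, hv]
  calc zU h c * tU h u * (zU h d * tU h v) * (zU h c * tU h u)⁻¹ * (zU h d * tU h v)⁻¹
      = zU h c * (tU h u * zU h d) * tU h v * (tU h u)⁻¹ * (zU h c)⁻¹ *
          (tU h v)⁻¹ * (zU h d)⁻¹ := by group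
    _ = zU h d * (zU h c * (tU h u * tU h v * (tU h u)⁻¹)) * (zU h c)⁻¹ * (tU h v)⁻¹ *
          (zU h d)⁻¹ := by
        rw [← zU_comm h d (tU h u), ← mul_assoc (zU h c), ← zU_comm h d (zU h c : GL J9 F)]
        group
    _ = zU h d * (zU h c * (zU h (B9 u v) * tU h v)) * (zU h c)⁻¹ * (tU h v)⁻¹ * (zU h d)⁻¹ := by
        rw [tU_conj]
    _ = zU h d * ((zU h (B9 u v) * tU h v) * zU h c) * (zU h c)⁻¹ * (tU h v)⁻¹ * (zU h d)⁻¹ := by
        rw [zU_comm h c (zU h (B9 u v) * tU h v)]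
    _ = zU h d * zU h (B9 u v) * (zU h d)⁻¹ := by group
    _ = zU h (B9 u v) := by rw [zU_comm h d (zU h (B9 u v) : GL J9 F), mul_inv_cancel_right]

/-- A non-central element of the Pauli group. -/
lemma ne_zero_of_notMem {x : M} (hx : x ∈ RM h M) (hxZ : x ∉ ZM h M) :
    ∃ c v, v ≠ 0 ∧ (x : GL J9 F) = zU h c * tU h v := by
  obtain ⟨c, v, hv⟩ := Subgroup.mem_subgroupOf.1 hx
  refine ⟨c, v, ?_, hv⟩
  rintro rfl
  exact hxZ (Subgroup.mem_subgroupOf.2 ⟨c, by rw [hv, tU_zero, mul_one]⟩)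

lemma cent_RM (H : Ctx h M) {x : M} (hx : x ∈ RM h M) (hxZ : x ∉ ZM h M) (g : M)
    (hg : g * x = x * g) : g ∈ NM w M := by
  obtain ⟨c, v, hv0, hv⟩ := ne_zero_of_notMem h hx hxZ
  exact Subgroup.mem_subgroupOf.2 (mem_N9_of_commute h H.norm_le H.le H.full g.2 hv0
    (show Commute (g : GL J9 F) (zU h c * tU h v) by
      rw [← hv]; exact congrArg Subtype.val hg))

lemma norm_RM {n : M} (hn : n ∈ NM w M) {r : M} (hr : r ∈ RM h M) : n * r * n⁻¹ ∈ RM h M := by
  obtain ⟨c, v, hv⟩ := Subgroup.mem_subgroupOf.1 hr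
  obtain ⟨d, hd⟩ := lab_spec h (Subgroup.mem_subgroupOf.1 hn) v
  refine Subgroup.mem_subgroupOf.2 ⟨c + d, lab h (n : GL J9 F) v, ?_⟩
  simp only [Subgroup.coe_mul, Subgroup.coe_inv, hv]
  rw [← mul_assoc, ← zU_comm h c (n : GL J9 F), mul_assoc (zU h c), mul_assoc (zU h c), hd, zU_add]
  group

lemma inKer_of_mem (H : Ctx h M) {g : M} (hg : g ∈ KM h M ⊓ NM w M) : InKer h (g : GL J9 F) :=
  ⟨⟨Subgroup.mem_subgroupOf.1 hg.2, H.le g.2⟩, hg.1.1, hg.1.2⟩

lemma mem_of_inKer (H : Ctx h M) {g : GL J9 F} (hg : InKer h g) :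
    ∃ x ∈ KM h M ⊓ NM w M, (x : GL J9 F) = g :=
  ⟨⟨g, H.norm_le hg.mem⟩, ⟨⟨hg.comm, hg.cz⟩, Subgroup.mem_subgroupOf.2 hg.mem.1⟩, rfl⟩

/-- The element of order three as an element of `M`. -/
def uM (H : Ctx h M) : M := ⟨uU h, H.norm_le (uU_spec h).1.mem⟩

lemma fA_uU_pow (n : ℕ) (v : V3) : InKer h (uU h ^ n) ∧
    fA h (uU h ^ n) v = (v.1, v.2 - (n : Z3) * v.1) := by
  induction n generalizing v with
  | zero =>
    have h1 : InKer h (1 : GL J9 F) :=
      ⟨one_mem _, Commute.one_left _, by rw [Units.val_one, cZ_one]⟩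
    rw [pow_zero]
    refine ⟨h1, ?_⟩
    rw [fA, lab, dif_pos (one_mem _)]
    refine (congrArg Prod.fst (Equiv.congr_fun (map_one (T9_good h).act) ((v, 0) : V9))).trans ?_
    simp
  | succ n ih =>
    rw [pow_succ]
    refine ⟨(ih v).1.mul h (uU_spec h).1, ?_⟩
    rw [(ih v).1.fA_mul h (uU_spec h).1, (uU_spec h).2, (ih (v.1, v.2 - v.1)).2]
    push_cast
    refine Prod.ext rfl ?_
    ring

lemma uU_order : orderOf (uU h) = 3 := by
  refine orderOf_eq_prime_iff.2 ⟨?_, ?_⟩
  · have := fA_uU_pow h 3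
    refine ((this (1, 0)).1.eq_one h ?_ ?_)
    · rw [(this (1, 0)).2]; decide
    · rw [(this (0, 1)).2]; decide
  · intro e
    have h1 := (uU_spec h).2 (1, 0)
    rw [e] at h1
    have h0 := (fA_uU_pow h 0 (1, 0)).2
    rw [pow_zero] at h0
    rw [h0] at h1
    simp at h1

/-- An element of the kernel commuting with `u` is, up to sign, a power of `u`. -/
lemma fA_commute {g : GL J9 F} (hg : InKer h g) (hc : Commute g (uU h)) :
    fA h g (0, 1) = ((0 : Z3), (fA h g (1, 0)).1) ∧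
      (fA h g (1, 0)).1 * (fA h g (1, 0)).1 = 1 := by
  have key : ∀ v, fA h g (v.1, v.2 - v.1) = ((fA h g v).1, (fA h g v).2 - (fA h g v).1) := by
    intro v
    rw [← (uU_spec h).2, ← (uU_spec h).2, ← hg.fA_mul h (uU_spec h).1,
      ← (uU_spec h).1.fA_mul h hg, hc.eq]
  have e := key (1, 0)
  have d := hg.det h
  rw [hg.fA_eq_lin] at e
  generalize fA h g (1, 0) = p at *
  generalize fA h g (0, 1) = q at *
  revert p q
  decide

lemma pow_one_of_lin : ∀ p q : V3, ∀ i : Fin 3, p.1 * q.2 - p.2 * q.1 = 1 →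
    (lin p q (1, -1) = ((p.1, p.2 - (i.val : Z3) * p.1) : V3)) →
    (lin p q (0, 1) = ((q.1, q.2 - (i.val : Z3) * q.1) : V3)) → i.val = 1 := by decide

lemma cube_self : ∀ x : Z3, x ^ 3 = x := by decide

variable [Finite F]

lemma card_centraliser_lt (H : Ctx h M) :
    Nat.card ↥(KM h M ⊓ NM w M ⊓ Subgroup.centralizer ({uM h H} : Set M)) < 9 := by
  let f : ↥(KM h M ⊓ NM w M ⊓ Subgroup.centralizer ({uM h H} : Set M)) → {v : V3 // v.1 ≠ 0} :=
    fun g => ⟨fA h ((g : M) : GL J9 F) (1, 0), by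
      have hc := fA_commute h (inKer_of_mem h H g.2.1) (show Commute _ (uU h) from
        congrArg Subtype.val (Subgroup.mem_centralizer_iff.1 g.2.2 _ rfl).symm)
      intro e
      rw [e] at hc
      simp at hc⟩
  have hinj : Function.Injective f := by
    intro a b e
    have e' := congrArg Subtype.val e
    have ha := fA_commute h (inKer_of_mem h H a.2.1) (show Commute _ (uU h) from
        congrArg Subtype.val (Subgroup.mem_centralizer_iff.1 a.2.2 _ rfl).symm)
    have hb := fA_commute h (inKer_of_mem h H b.2.1) (show Commute _ (uU h) from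
        congrArg Subtype.val (Subgroup.mem_centralizer_iff.1 b.2.2 _ rfl).symm)
    refine Subtype.ext (Subtype.ext ((inKer_of_mem h H a.2.1).ext h (inKer_of_mem h H b.2.1) e' ?_))
    rw [ha.1, hb.1]
    exact congrArg (fun v : V3 => ((0 : Z3), v.1)) e'
  refine lt_of_le_of_lt (Nat.card_le_card_of_injective f hinj) ?_
  rw [Nat.card_eq_fintype_card]
  decide

/-- The data of the kernel. -/
theorem kernelData (H : Ctx h M) :
    KernelData (NM w M) (RM h M) (RpM h M) (ZM h M) (KM h M) (uM h H) := by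
  have hR'R : RpM h M ≤ RM h M := fun g hg =>
    Subgroup.mem_subgroupOf.2 (Subgroup.mem_subgroupOf.1 hg).1
  have hR'c : ∀ r ∈ RpM h M, Commute (r : GL J9 F) (tT h) := fun r hr =>
    (Subgroup.mem_centralizer_iff.1 (Subgroup.mem_subgroupOf.1 hr).2 _ rfl).symm
  refine
    { R_le := fun g hg => Subgroup.mem_subgroupOf.2 (Rsub_le h (Subgroup.mem_subgroupOf.1 hg)).1
      norm := fun n hn r hr => norm_RM h hn hr
      R'_le := hR'R
      Z_le := fun g hg => ?_
      Z_center := fun g hg => mem_center_of_scal h hg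
      cube := fun r hr => cube_RM h (hR'R hr)
      comm := fun r hr s hs => comm_RM h (hR'R hr) (hR'R hs)
      card := ?_
      cent := fun x hx hxZ g hg => cent_RM h H (hR'R hx) hxZ g hg
      inv := fun r hr k hk => ?_
      disjoint := ?_
      u_mem := ?_
      u_order := ?_
      u_max := ?_
      no_inv := ?_
      nine := ?_
      no_center := ?_ }
  · obtain ⟨c, hc⟩ := Subgroup.mem_subgroupOf.1 hg
    refine Subgroup.mem_subgroupOf.2 ⟨⟨c, 0, by rw [hc, tU_zero, mul_one]⟩, ?_⟩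
    refine Subgroup.mem_centralizer_iff.2 fun x hx => ?_
    rw [Set.mem_singleton_iff] at hx
    rw [hx, hc]
    exact (zU_comm h c _).symm
  · let gz : Z3 → ZM h M := fun c => ⟨⟨zU h c, H.norm_le ⟨zU_mem_N9 h c, zU_mem h c⟩⟩,
      Subgroup.mem_subgroupOf.2 ⟨c, rfl⟩⟩
    have hs : Function.Surjective gz := fun x => by
      obtain ⟨c, hc⟩ := Subgroup.mem_subgroupOf.1 x.2
      exact ⟨c, Subtype.ext (Subtype.ext hc.symm)⟩
    let gr : Z3 × V3 → RpM h M := fun p => ⟨⟨zU h p.1 * tU h (0, p.2), H.norm_le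
      (Rsub_le h ⟨_, _, rfl⟩)⟩, Subgroup.mem_subgroupOf.2 ⟨⟨_, _, rfl⟩,
        Subgroup.mem_centralizer_iff.2 fun x hx => by
          rw [Set.mem_singleton_iff] at hx
          rw [hx]
          have := (tT_mem h).2 (0, p.2)
          rw [neg_zero, mul_inv_eq_iff_eq_mul] at this
          show tT h * (zU h p.1 * tU h (0, p.2)) = zU h p.1 * tU h (0, p.2) * tT h
          rw [← mul_assoc, ← zU_comm h p.1 (tT h), mul_assoc, this, mul_assoc]⟩⟩
    have hi : Function.Injective gr := fun p q e => by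
      obtain ⟨e1, e2⟩ := zT_inj h (congrArg (fun x : RpM h M => ((x : M) : GL J9 F)) e)
      exact Prod.ext e1 (congrArg (fun v : V9 => v.2) e2)
    have h1 := Nat.card_le_card_of_surjective gz hs
    have h2 := Nat.card_le_card_of_injective gr hi
    simp at h1 h2
    omega
  · have hc := hR'c r hr
    refine ⟨?_, ?_⟩
    · simpa using (hc.mul_left hk.1).mul_left hc.inv_left
    · simp only [Subgroup.coe_mul, Subgroup.coe_inv]
      rw [cZ_mul' h (hc.mul_left hk.1) hc.inv_left, cZ_mul' h hc hk.1, hk.2, mul_one,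
        ← cZ_mul' h hc hc.inv_left, mul_inv_cancel, Units.val_one, cZ_one]
  · refine le_bot_iff.1 fun g hg => Subgroup.mem_bot.2 (Subtype.ext ?_)
    have hk : InKer h (g : GL J9 F) :=
      ⟨⟨(Rsub_le h (Subgroup.mem_subgroupOf.1 hg.2)).1, H.le g.2⟩, hg.1.1, hg.1.2⟩
    refine hk.eq_one h ?_ ?_ <;> rw [fA, lab_Rsub h (Subgroup.mem_subgroupOf.1 hg.2)]
  · exact ⟨⟨(uU_spec h).1.comm, (uU_spec h).1.cz⟩, Subgroup.mem_subgroupOf.2 (uU_spec h).1.mem.1⟩
  · rw [← Subgroup.orderOf_coe]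
    exact uU_order h
  · intro P hUP hPK hP3
    haveI : Fact (Nat.Prime 3) := ⟨Nat.prime_three⟩
    by_contra hne
    obtain ⟨g, hgP, hgU, hgn⟩ := exists_normalizing_outside hP3 hUP hne
    have hgk := inKer_of_mem h H (hPK hgP)
    obtain ⟨m, hm⟩ := Subgroup.mem_zpowers_iff.1
      ((Subgroup.mem_normalizer_iff.1 hgn (uM h H)).1 (Subgroup.mem_zpowers _))
    obtain ⟨i, hi, hmi⟩ : ∃ i, i < 3 ∧ uM h H ^ i = g * uM h H * g⁻¹ := by
      have h3 : orderOf (uM h H) = 3 := by rw [← Subgroup.orderOf_coe]; exact uU_order h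
      refine ⟨(m % 3).toNat, by omega, ?_⟩
      rw [← hm, ← zpow_natCast, Int.toNat_of_nonneg (Int.emod_nonneg _ (by norm_num))]
      exact (zpow_eq_zpow_iff_modEq.2 (by rw [h3]; exact Int.mod_modEq m 3))
    have hcond : uU h ^ i * (g : GL J9 F) = (g : GL J9 F) * uU h := by
      have := congrArg Subtype.val hmi
      simp only [Subgroup.coe_mul, Subgroup.coe_inv, SubgroupClass.coe_pow] at this
      show (uM h H : GL J9 F) ^ i * _ = _ * (uM h H : GL J9 F)
      rw [this]; group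
    have hi1 : i = 1 := by
      have key := pow_one_of_lin
      have e : ∀ v, fA h g (v.1, v.2 - v.1) =
          ((fA h g v).1, (fA h g v).2 - (i : Z3) * (fA h g v).1) := fun v => by
        rw [← (fA_uU_pow h i _).2, ← (uU_spec h).2, ← hgk.fA_mul h (uU_spec h).1,
          ← (fA_uU_pow h i ((0 : Z3), (0 : Z3))).1.fA_mul h hgk, hcond]
      refine key _ _ ⟨i, hi⟩ (hgk.det h) ?_ ?_
      · rw [← hgk.fA_eq_lin]; simpa using e (1, 0)
      · rw [← hgk.fA_eq_lin]; simpa using e (0, 1)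
    subst hi1
    rw [pow_one] at hcond
    have hA := fA_commute h hgk hcond.symm
    -- the sign is trivial
    have hs : ∀ n : ℕ, InKer h ((g : GL J9 F) ^ n) ∧
        fA h ((g : GL J9 F) ^ n) (0, 1) = ((0 : Z3), (fA h g (1, 0)).1 ^ n) := by
      intro n
      induction n with
      | zero =>
        have := fA_uU_pow h 0 (0, 1)
        rw [pow_zero] at this ⊢
        exact ⟨this.1, by rw [this.2]; simp⟩
      | succ n ih =>
        rw [pow_succ', pow_succ']
        refine ⟨hgk.mul h ih.1, ?_⟩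
        rw [hgk.fA_mul h ih.1, ih.2, hgk.fA_eq_lin, hA.1]
        simp [lin, mul_comm]
    obtain ⟨n, hn⟩ := hP3 ⟨g, hgP⟩
    have hone : (fA h g (1, 0)).1 = 1 := by
      have e := (hs (3 ^ n)).2
      have e1 : (g : GL J9 F) ^ 3 ^ n = 1 := by
        simpa using congrArg (fun x : P => ((x : M) : GL J9 F)) hn
      rw [e1] at e
      have h0 := (fA_uU_pow h 0 (0, 1)).2
      rw [pow_zero] at h0
      rw [h0] at e
      have e2 : (fA h g (1, 0)).1 ^ 3 ^ n = 1 := by simpa using (congrArg Prod.snd e).symm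
      have e3 := cube_self
      have e4 : ∀ k : ℕ, (fA h g (1, 0)).1 ^ 3 ^ k = (fA h g (1, 0)).1 := by
        intro k
        induction k with
        | zero => simp
        | succ k ih => rw [pow_succ, pow_mul, ih, e3]
      rwa [e4] at e2
    refine hgU (Subgroup.mem_zpowers_iff.2 ⟨(-(fA h g (1, 0)).2).val, ?_⟩)
    rw [zpow_natCast]
    refine Subtype.ext ?_
    rw [SubgroupClass.coe_pow]
    show uU h ^ _ = _
    obtain ⟨hp, hpv⟩ := fA_uU_pow h (-(fA h g (1, 0)).2).val (1, 0)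
    refine hp.ext h hgk ?_ ?_
    · rw [hpv, ZMod.natCast_zmod_val]
      refine Prod.ext hone.symm ?_
      simp
    · rw [(fA_uU_pow h _ (0, 1)).2, hA.1, hone]
      simp
  · intro g hg e
    have hgk := inKer_of_mem h H hg
    have hcond : uU h ^ 2 * (g : GL J9 F) = (g : GL J9 F) * uU h := by
      have := congrArg Subtype.val e
      simp only [Subgroup.coe_mul, Subgroup.coe_inv] at this
      have h2 : (uU h)⁻¹ = uU h ^ 2 := inv_eq_of_mul_eq_one_right (by
        rw [← pow_succ']; simpa [uU_order h] using pow_orderOf_eq_one (uU h))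
      rw [show (uU h) ^ 2 = (g : GL J9 F) * uU h * (g : GL J9 F)⁻¹ from h2.symm.trans this.symm]
      group
    have key : ∀ p q : V3, p.1 * q.2 - p.2 * q.1 = 1 →
        (lin p q (1, -1) = ((p.1, p.2 - 2 * p.1) : V3)) →
        ¬ (lin p q (0, 1) = ((q.1, q.2 - 2 * q.1) : V3)) := by decide
    have e : ∀ v, fA h g (v.1, v.2 - v.1) =
        ((fA h g v).1, (fA h g v).2 - 2 * (fA h g v).1) := fun v => by
      have := (fA_uU_pow h 2 (fA h g v)).2
      push_cast at this
      rw [← this, ← (uU_spec h).2, ← hgk.fA_mul h (uU_spec h).1,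
        ← (fA_uU_pow h 2 ((0 : Z3), (0 : Z3))).1.fA_mul h hgk, hcond]
    exact key _ _ (hgk.det h) (by rw [← hgk.fA_eq_lin]; simpa using e (1, 0))
      (by rw [← hgk.fA_eq_lin]; simpa using e (0, 1))
  · intro hd
    have h1 := card_centraliser_lt h H
    exact absurd (Nat.le_of_dvd Nat.card_pos hd) (not_le.2 h1)
  · intro k hk hk3 hkc
    have hkk := inKer_of_mem h H hk
    obtain ⟨x, hx, hxe⟩ := mem_of_inKer h H (uU_spec h).1
    obtain ⟨y, hy, hye⟩ := mem_of_inKer h H (uU'_spec h).1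
    have c1 : Commute (k : GL J9 F) (uU h) := hxe ▸ congrArg Subtype.val (hkc x hx)
    have c2 : Commute (k : GL J9 F) (uU' h) := hye ▸ congrArg Subtype.val (hkc y hy)
    have hA := fA_commute h hkk c1
    have hB : ∀ v, fA h k (fA h (uU' h) v) = fA h (uU' h) (fA h k v) := fun v => by
      rw [← hkk.fA_mul h (uU'_spec h).1, ← (uU'_spec h).1.fA_mul h hkk, c2.eq]
    have hB1 := hB (0, 1)
    rw [(uU'_spec h).2.2, hA.1, (uU'_spec h).1.fA_eq_lin, (uU'_spec h).2.1, (uU'_spec h).2.2,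
      hkk.fA_eq_lin, hA.1] at hB1
    have h3 : InKer h ((k : GL J9 F) * k * k) := (hkk.mul h hkk).mul h hkk
    have hcube : (k : GL J9 F) * k * k = 1 := by
      rw [← pow_three']
      simpa using congrArg Subtype.val hk3
    have hC : fA h ((k : GL J9 F) * k * k) (0, 1) = (0, 1) := by
      rw [hcube]
      have := (fA_uU_pow h 0 (0, 1)).2
      rw [pow_zero] at this
      rw [this]; simp
    have hkL : ∀ v, fA h (k : GL J9 F) v =
        lin (fA h (k : GL J9 F) (1, 0)) ((0 : Z3), (fA h (k : GL J9 F) (1, 0)).1) v := fun v => by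
      rw [hkk.fA_eq_lin, hA.1]
    rw [(hkk.mul h hkk).fA_mul h hkk, hkk.fA_mul h hkk, hA.1, hkL (((0 : Z3), (fA h (k : GL J9 F) (1, 0)).1)),
      hkL (lin _ _ _)] at hC
    have key : ∀ p : V3, lin p ((0 : Z3), p.1) (1, 1) = lin (1, 0) (1, 1) ((0 : Z3), p.1) →
        lin p ((0 : Z3), p.1) (lin p ((0 : Z3), p.1) ((0 : Z3), p.1)) = (0, 1) → p = (1, 0) := by
      decide
    have hp := key _ hB1 hC
    refine Subtype.ext (hkk.eq_one h hp ?_)
    rw [hA.1, hp]

/-- The centraliser of the parity of the first factor lies in the normaliser. -/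
theorem mem_NM_of_commute_t (H : Ctx h M) {g : M} (hg : Commute (g : GL J9 F) (tT h)) :
    g ∈ NM w M := by
  obtain ⟨a, ha, hae⟩ := exists_cZ h (H.le g.2) hg
  obtain ⟨hn, -⟩ := kron_mem_N h (one_mem (UU Z3 σ)) ha
  set n : M := ⟨kronHom ((1 : GL Z3 F), a), H.norm_le hn⟩
  have hnN : n ∈ NM w M := Subgroup.mem_subgroupOf.2 hn.1
  have hnc := kron_one_comm_t h a
  have hk : n⁻¹ * g ∈ KM h M := by
    refine ⟨by simpa [n] using hnc.inv_left.mul_left hg, ?_⟩
    simp only [n, Subgroup.coe_mul, Subgroup.coe_inv]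
    have he : cZ ((kronHom ((1 : GL Z3 F), a) : GL J9 F) : Matrix J9 J9 F) =
        cZ ((g : GL J9 F) : Matrix J9 J9 F) := by
      rw [cZ_kron, Units.val_one, Matrix.one_apply_eq, one_smul, hae]
    rw [cZ_mul' h hnc.inv_left hg, ← he, ← cZ_mul' h hnc.inv_left hnc, inv_mul_cancel,
      Units.val_one, cZ_one]
  have := (NM w M).mul_mem hnN ((kernelData h H).le hk)
  rwa [mul_inv_cancel_left] at this

end CfsgLib.Geometric.SUNine.Two
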