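import Cfsg.Agent.Lib.Geometric.SUNine.Two.Parity
import Cfsg.Agent.Lib.Geometric.SUNine.Two.Centraliser
import Cfsg.Agent.Lib.Geometric.SUNine.Involution

/-!
Over the field of four elements the centraliser in `M` of the parity of the first factor lies in the
normaliser, unless `M` is full.
-/

set_option autoImplicit false
set_option linter.unusedSectionVars false

namespace CfsgLib.Geometric.SUNine.Two

open Matrix
open CfsgLib.Geometric.SLNine

variable {F : Type*} [Field F] {σ : F ≃+* F} {w : F}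

local notation "Z3" => ZMod 3

lemma zT_inj (h : Four σ w) {c c' : Z3} {v v' : V9}
    (e : zU h c * tU h v = zU h c' * tU h v') : c = c' ∧ v = v' := by
  have hv : v = v' := by
    have e' := congrArg (fun g : GL J9 F => (g : Matrix J9 J9 F)) e
    simp only [Units.val_mul, coe_zU, coe_tU, smul_mul_assoc, one_mul] at e'
    refine ((T9_good h).inj v v' ((ph w c')⁻¹ * ph w c) ?_).symm
    rw [mul_smul, e', smul_smul, inv_mul_cancel₀ (h.ph_ne_zero c'), one_smul]
  subst hv
  exact ⟨h.ph_inj (by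
    have := congrArg (fun g : GL J9 F => (g : Matrix J9 J9 F) 0 0) (mul_right_cancel e)
    simpa [coe_zU] using this), rfl⟩

/-- An element of the normaliser commuting with the parity of the first factor respects the
factors. -/
lemma lab_split (h : Four σ w) {g : GL J9 F} (hg : g ∈ N9 w) (hc : Commute g (tT h)) (v : V9) :
    lab h g v = ((lab h g (v.1, 0)).1, (lab h g (0, v.2)).2) ∧ (lab h g (0, v.2)).1 = 0 ∧
      (lab h g (v.1, 0)).2 = 0 := by
  have e : ∀ x, lab h g (-x.1, x.2) = (-(lab h g x).1, (lab h g x).2) := fun x => by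
    rw [← lab_tT h x, ← lab_mul h hg (tT_mem h).1.1, hc.eq, lab_mul h (tT_mem h).1.1 hg, lab_tT]
  have key : ∀ y : V3, -y = y → y = 0 := by decide
  have h1 : (lab h g (0, v.2)).1 = 0 := by
    refine key _ ?_
    have := e (0, v.2)
    rw [neg_zero] at this
    exact (congrArg Prod.fst this).symm
  have h2 : (lab h g (v.1, 0)).2 = 0 := by
    refine key _ ?_
    have := e (v.1, 0)
    rw [show ((-v.1, 0) : V9) = -(v.1, 0) from by simp, lab_neg h hg] at this
    exact congrArg Prod.snd this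
  refine ⟨?_, h1, h2⟩
  conv_lhs => rw [show v = ((v.1, 0) : V9) + (0, v.2) from by simp]
  rw [lab_add h hg]
  exact Prod.ext (by simp [h1]) (by simp [h2])

/-- The action of an element of the kernel on the first factor. -/
noncomputable def fA (h : Four σ w) (g : GL J9 F) (v : V3) : V3 := (lab h g (v, 0)).1

/-- The kernel inside the normaliser. -/
structure InKer (h : Four σ w) (g : GL J9 F) : Prop where
  mem : g ∈ N9 w ⊓ SU J9 σ
  comm : Commute g (tT h)
  cz : cZ (g : Matrix J9 J9 F) = 1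

variable (h : Four σ w)

lemma InKer.mul {g g' : GL J9 F} (hg : InKer h g) (hg' : InKer h g') : InKer h (g * g') :=
  ⟨mul_mem hg.mem hg'.mem, hg.comm.mul_left hg'.comm,
    by rw [cZ_mul' h hg.comm hg'.comm, hg.cz, hg'.cz, mul_one]⟩

lemma InKer.inv {g : GL J9 F} (hg : InKer h g) : InKer h g⁻¹ :=
  ⟨inv_mem hg.mem, hg.comm.inv_left, by
    have := cZ_mul' h hg.comm.inv_left hg.comm
    rwa [inv_mul_cancel, Units.val_one, cZ_one, hg.cz, mul_one, eq_comm] at this⟩

/-- The second factor is fixed. -/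
lemma InKer.lab_snd {g : GL J9 F} (hg : InKer h g) (v : V9) :
    lab h g v = (fA h g v.1, v.2) := by
  have hfix : ∀ y : V3, lab h g (0, y) = (0, y) := by
    intro y
    obtain ⟨c, hc⟩ := lab_spec h hg.mem.1 (0, y)
    obtain ⟨-, h1, -⟩ := lab_split h hg.mem.1 hg.comm (0, y)
    set z := (lab h g (0, y)).2
    rw [show lab h g (0, y) = (0, z) from Prod.ext h1 rfl] at hc ⊢
    have hcR : ∀ y : V3, Commute (tU h (0, y)) (tT h) := fun y => by
      show tU h (0, y) * tT h = tT h * tU h (0, y)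
      have := (tT_mem h).2 (0, y)
      rw [neg_zero, mul_inv_eq_iff_eq_mul] at this
      exact this.symm
    have hcz : Commute (zU h c * tU h (0, z)) (tT h) :=
      (show Commute (zU h c) (tT h) from zU_comm h c (tT h)).mul_left (hcR z)
    have hT : ∀ (c : Z3) (y : V3),
        cZ ((zU h c * tU h (0, y) : GL J9 F) : Matrix J9 J9 F) = ph w c • P3 w y := by
      intro c y
      ext k l
      rw [zU, tU, mU_mul, one_mul, cZ_mU, Matrix.smul_apply, P3_eq, mono_apply]
      by_cases e : k = l + y.1 <;> simp [e, h.ph_add]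
    have e := congrArg (fun x : GL J9 F => cZ (x : Matrix J9 J9 F)) (mul_inv_eq_iff_eq_mul.1 hc)
    rw [cZ_mul' h hg.comm (hcR y), cZ_mul' h hcz hg.comm, hg.cz, one_mul, mul_one, hT] at e
    have e0 := hT 0 y
    rw [zU_zero, one_mul, ph_zero, one_smul] at e0
    rw [e0] at e
    rw [h.P3_good.inj z y _ e]
  obtain ⟨h0, -, -⟩ := lab_split h hg.mem.1 hg.comm v
  rw [h0, hfix]
  rfl

lemma InKer.fA_mul {g g' : GL J9 F} (hg : InKer h g) (hg' : InKer h g') (v : V3) :
    fA h (g * g') v = fA h g (fA h g' v) := by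
  rw [fA, lab_mul h hg.mem.1 hg'.mem.1, hg'.lab_snd, hg.lab_snd]

lemma InKer.fA_add {g : GL J9 F} (hg : InKer h g) (u v : V3) :
    fA h g (u + v) = fA h g u + fA h g v := by
  rw [fA, fA, fA, ← Prod.fst_add, ← lab_add h hg.mem.1]
  simp

lemma InKer.fA_eq_lin {g : GL J9 F} (hg : InKer h g) (v : V3) :
    fA h g v = lin (fA h g (1, 0)) (fA h g (0, 1)) v := by
  let f : V3 →+ V3 := AddMonoidHom.mk' (fA h g) hg.fA_add
  show f v = lin (f (1, 0)) (f (0, 1)) v
  have key : ∀ (c : Z3) (x : V3), f (c • x) = c • f x := fun c x =>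
    (f.toZModLinearMap 3).map_smul c x
  rw [lin, ← key, ← key, ← map_add]
  congr 1
  simp [Prod.ext_iff]

lemma InKer.det {g : GL J9 F} (hg : InKer h g) :
    (fA h g (1, 0)).1 * (fA h g (0, 1)).2 - (fA h g (1, 0)).2 * (fA h g (0, 1)).1 = 1 := by
  have := lab_B9 h hg.mem.1 ((1, 0), 0) ((0, 1), 0)
  rw [hg.lab_snd, hg.lab_snd] at this
  simp [B9, B3] at this
  linear_combination -this

/-- An element of the kernel is determined by its action. -/
lemma InKer.eq_one {g : GL J9 F} (hg : InKer h g) (h1 : fA h g (1, 0) = (1, 0))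
    (h2 : fA h g (0, 1) = (0, 1)) : g = 1 := by
  have hA : ∀ v, fA h g v = v := fun v => by
    rw [hg.fA_eq_lin, h1, h2]
    revert v; decide
  obtain ⟨c, v, rfl⟩ := mem_Rsub_of_lab h hg.mem.1 fun v => by rw [hg.lab_snd, hA]
  have hv1 : v.1 = 0 := by
    have e := hg.comm.eq
    have hcv : tT h * (zU h c * tU h v) * (tT h)⁻¹ = zU h c * tU h (-v.1, v.2) := by
      rw [← mul_assoc, ← zU_comm h c (tT h), mul_assoc (zU h c), mul_assoc (zU h c), (tT_mem h).2]
    rw [← e, mul_inv_cancel_right] at hcv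
    have key : ∀ y : V3, y = -y → y = 0 := by decide
    exact key _ (congrArg Prod.fst (zT_inj h hcv).2)
  have hcz := hg.cz
  rw [show v = (0, v.2) from Prod.ext hv1 rfl] at hcz ⊢
  have hent : ∀ k l : Z3, (if k = l + v.2.1 then ph w (c + v.2.2 * l) else 0) =
      (1 : Matrix Z3 Z3 F) k l := by
    intro k l
    rw [← hcz, zU, tU, mU_mul, one_mul, cZ_mU]
    simp
  have ha : v.2.1 = 0 := by
    by_contra hne
    have := hent 0 0
    rw [if_neg (by simpa using Ne.symm hne), Matrix.one_apply_eq] at this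
    exact one_ne_zero this.symm
  have hph : ∀ l : Z3, c + v.2.2 * l = 0 := fun l => by
    have := hent l l
    rw [if_pos (by simp [ha]), Matrix.one_apply_eq, ← ph_zero (w := w)] at this
    exact h.ph_inj this
  have hc : c = 0 := by simpa using hph 0
  have hb : v.2.2 = 0 := by simpa [hc] using hph 1
  rw [hc, show v.2 = 0 from Prod.ext ha hb, zU_zero, one_mul, Prod.mk_zero_zero, tU_zero]

lemma InKer.ext {g g' : GL J9 F} (hg : InKer h g) (hg' : InKer h g')
    (h1 : fA h g (1, 0) = fA h g' (1, 0)) (h2 : fA h g (0, 1) = fA h g' (0, 1)) : g = g' := by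
  have hid : ∀ v, fA h (g'⁻¹) (fA h g' v) = v := fun v => by
    rw [← hg'.inv.fA_mul h hg', inv_mul_cancel, fA, lab, dif_pos (one_mem _)]
    exact congrArg Prod.fst (Equiv.congr_fun (map_one (T9_good h).act) ((v, 0) : V9))
  have := (hg'.inv.mul h hg).eq_one h (by rw [hg'.inv.fA_mul h hg, h1, hid])
    (by rw [hg'.inv.fA_mul h hg, h2, hid])
  exact (inv_mul_eq_one.1 this).symm

/-- The element of order three in the kernel. -/
def uU : GL J9 F := kronHom (qU h, 1)

/-- A second element of order three in the kernel. -/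
def uU' : GL J9 F := kronHom (fU h * qU h * (fU h)⁻¹, 1)

lemma inKer_kron {a : GL Z3 F} (ha : a ∈ UU Z3 σ) (hp : Commute a (mU h (Equiv.neg Z3) 0))
    (h0 : (a : Matrix Z3 Z3 F) 0 0 = 1) :
    InKer h (kronHom (a, 1)) ∧ ∀ v, fA h (kronHom (a, 1)) v = lab3 h a v := by
  obtain ⟨hk, hl⟩ := kron_mem_N h ha (one_mem (UU Z3 σ))
  refine ⟨⟨hk, ?_, by rw [cZ_kron, h0, one_smul, Units.val_one]⟩, fun v => by rw [fA, hl]⟩
  rw [tT_eq_kron]
  exact (show Commute (a, (1 : GL Z3 F)) (mU h (Equiv.neg Z3) 0, (1 : GL Z3 F)) from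
    Prod.ext (by simpa using hp.eq) (by simp)).map kronHom

lemma uU_spec : InKer h (uU h) ∧ ∀ v, fA h (uU h) v = (v.1, v.2 - v.1) := by
  obtain ⟨h1, h2⟩ := inKer_kron h (qU_mem_UU h) (qU_parity h) (by
    simp [qU, mono_apply, ph_zero])
  exact ⟨h1, fun v => (h2 v).trans (lab3_qU h v)⟩

lemma uU'_spec : InKer h (uU' h) ∧
    fA h (uU' h) (1, 0) = (1, 0) ∧ fA h (uU' h) (0, 1) = (1, 1) := by
  have hU : fU h * qU h * (fU h)⁻¹ ∈ UU Z3 σ :=
    mul_mem (mul_mem (fU_mem_UU h) (qU_mem_UU h)) (inv_mem (fU_mem_UU h))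
  have h00 : ((fU h * qU h * (fU h)⁻¹ : GL Z3 F) : Matrix Z3 Z3 F) 0 0 = 1 := by
    rw [Units.val_mul, Units.val_mul, Matrix.mul_apply]
    simp only [Matrix.mul_apply, inv_apply (fU_mem_UU h) h.σσ, coe_fU, h.σ_ph, qU, coe_mU, mono_apply]
    rw [sum_three]
    simp only [sum_three, Equiv.Perm.one_apply]
    simp +decide [ph]
    have e : ((1 : Z3)).val = 1 := rfl
    have e2 : ((2 : Z3) * 2).val = 1 := rfl
    rw [e, e2, pow_one]
    linear_combination w * h.two
  obtain ⟨h1, h2⟩ := inKer_kron h hU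
    (((fU_parity h).mul_left (qU_parity h)).mul_left (fU_parity h).inv_left) h00
  have hlab : ∀ x, lab3 h (fU h * qU h * (fU h)⁻¹) (lab3 h (fU h) x) =
      lab3 h (fU h) (lab3 h (qU h) x) := by
    intro x
    rw [← lab3_mul h (UU_le_N3 h hU) (fU_mem_N3 h), inv_mul_cancel_right,
      lab3_mul h (fU_mem_N3 h) (qU_mem_N3 h)]
  refine ⟨h1, ?_, ?_⟩
  · show fA h (kronHom _) _ = _
    have := hlab (0, -1)
    simp only [lab3_fU, lab3_qU, neg_neg] at this
    rw [h2, this]
    decide
  · show fA h (kronHom _) _ = _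
    have := hlab (1, 0)
    simp only [lab3_fU, lab3_qU, neg_zero] at this
    rw [h2, this]
    decide

end CfsgLib.Geometric.SUNine.Two
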