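import Cfsg.Agent.Lib.Geometric.SUNine.Two.Blocks

/-!
Over the field of four elements the centraliser in `M` of a Pauli matrix lies in the normaliser,
unless `M` contains all monomial matrices of determinant one.
-/

set_option autoImplicit false
set_option linter.unusedSectionVars false

namespace CfsgLib.Geometric.SUNine.Two

open Matrix
open CfsgLib.Geometric.SLNine

variable {F : Type*} [Field F] {σ : F ≃+* F} {w : F}

local notation "Z3" => ZMod 3

/-- `M` contains all monomial matrices of determinant one. -/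
def Full (h : Four σ w) (M : Subgroup (GL J9 F)) : Prop :=
  (∀ f : J9 → Z3, ∑ j, f j = 0 → mU h 1 f ∈ M) ∧ ∀ π : Equiv.Perm J9, mU h π 0 ∈ M

variable (h : Four σ w) {M : Subgroup (GL J9 F)} (hNM : N9 w ⊓ SU J9 σ ≤ M)

/-- The block translations in `M`. -/
def Pb (M : Subgroup (GL J9 F)) (u : Z3 → V3) : Prop := bdHom (fun i => pU h (u i)) ∈ M

include hNM

lemma cs_mem (c : Z3 → Z3) : bdHom (fun i => (zU h (c i) : GL Z3 F)) ∈ M := by
  rw [show (fun i => (zU h (c i) : GL Z3 F)) = fun i => mU h 1 (fun _ => c i) from rfl, bdHom_mU]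
  have e1 : (Equiv.prodCongrRight fun _ : Z3 => (1 : Equiv.Perm Z3)) = 1 := by ext j <;> simp
  rw [e1]
  refine hNM ⟨mem_N9 h fun v => ?_, mU_mem_SU h _ ?_⟩
  · have key : ∀ (c : Z3 → Z3) (a : Z3), ∃ β γ : Z3, ∀ i, c (i + a) - c i = β * i + γ := by decide
    obtain ⟨β, γ, hk⟩ := key c v.1.1
    refine ⟨((v.1.1, v.1.2 + β), v.2), γ, ?_⟩
    rw [mul_inv_eq_iff_eq_mul, zU, tU, tU, mU_mul, mU_mul, mU_mul]
    congr 1
    funext j
    simp only [Equiv.prodCongr_apply, Prod.map, Equiv.coe_addRight, Equiv.Perm.one_apply]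
    linear_combination hk j.1
  · rw [Fintype.sum_prod_type]
    simp only [sum_three]
    have h3 : (3 : Z3) = 0 := by decide
    linear_combination (c 0 + c 1 + c 2) * h3

lemma pb_iff (u : Z3 → V3) (c : Z3 → Z3) :
    bdHom (fun i => zU h (c i) * pU h (u i)) ∈ M ↔ Pb h M u := by
  rw [show (fun i => zU h (c i) * pU h (u i)) =
    (fun i => (zU h (c i) : GL Z3 F)) * fun i => pU h (u i) from rfl, map_mul]
  exact M.mul_mem_cancel_left (cs_mem h hNM c)

lemma pb_add {u v : Z3 → V3} (hu : Pb h M u) (hv : Pb h M v) : Pb h M (u + v) := by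
  have e := M.mul_mem hu hv
  rw [← map_mul] at e
  rw [show (fun i => pU h (u i)) * (fun i => pU h (v i)) =
    fun i => zU h ((u i).2 * (v i).1) * pU h ((u + v) i) from funext fun i => pU_mul h _ _] at e
  exact (pb_iff h hNM _ _).1 e

lemma pb_zero : Pb h M 0 := by
  rw [Pb, show (fun i : Z3 => pU h ((0 : Z3 → V3) i)) = 1 from funext fun _ => pU_zero h, map_one]
  exact one_mem M

lemma pb_neg {u : Z3 → V3} (hu : Pb h M u) : Pb h M (-u) := by
  have : -u = u + u := by
    funext i
    obtain ⟨a, b⟩ : V3 := u i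
    have key : ∀ x : V3, -x = x + x := by decide
    exact key (u i)
  rw [this]
  exact pb_add h hNM hu hu

lemma pb_const (v : V3) : Pb h M fun _ => v := by
  rw [Pb, ← kron_one_eq]
  exact hNM (kron_mem_N h (one_mem _) (pU_mem_UU h v)).1

lemma pb_conj {u : Z3 → V3} (hu : Pb h M u) {n : GL Z3 F} (hn : n ∈ UU Z3 σ) :
    Pb h M fun i => lab3 h n (u i) := by
  have hk := hNM (kron_mem_N h (one_mem (UU Z3 σ)) hn).1
  have e := M.mul_mem (M.mul_mem hk hu) (M.inv_mem hk)
  rw [kron_one_eq, ← map_mul, ← map_inv, ← map_mul] at e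
  choose c hc using fun i => conj_pU h hn (u i)
  refine (pb_iff h hNM _ c).1 ?_
  convert e using 2
  funext i
  exact (hc i).symm

lemma pb_linear (e : V3) : Pb h M fun i => i • e := by
  rcases eq_or_ne e 0 with rfl | he
  · simpa [Pi.zero_def] using pb_zero h hNM (M := M)
  obtain ⟨n, hn, rfl⟩ := exists_lab3 h e he
  have h0 : Pb h M fun i => (0, i) := by
    rw [Pb]
    simp only [pU]
    rw [bdHom_mU]
    convert hNM (cU_mem h).1 using 1
    rw [cU]
    congr 1
    ext j <;> simp
  have := pb_conj h hNM h0 hn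
  convert this using 2 with i
  rw [← lab3_smul h hn]
  congr 1
  simp

/-- A translation of a single block gives all monomial matrices. -/
lemma full_of_pb {u : Z3 → V3} (hu : Pb h M u) (hsum : u 0 + u 1 + u 2 ≠ 0) : Full h M := by
  classical
  have hall : ∀ i : Z3, i = 0 ∨ i = 1 ∨ i = 2 := by decide
  have hd : Pb h M (Pi.single 2 (u 0 + u 1 + u 2)) := by
    have := pb_add h hNM (pb_add h hNM hu (pb_neg h hNM (pb_const h hNM (u 0))))
      (pb_neg h hNM (pb_linear h hNM (u 1 - u 0)))
    convert this using 1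
    funext i
    have key : ∀ a b c : V3, a - a - (0 : Z3) • (b - a) = 0 ∧ b - a - (1 : Z3) • (b - a) = 0 ∧
        c - a - (2 : Z3) • (b - a) = a + b + c := by
      intro a b c
      have h3 : ∀ x : V3, -(x + x) = x := by decide
      refine ⟨by simp, by simp, ?_⟩
      rw [show (2 : Z3) • (b - a) = (b - a) + (b - a) from two_smul _ _, sub_eq_add_neg (c - a),
        h3 (b - a)]
      have h4 : ∀ x : V3, -x + -x = x := by decide
      calc c - a + (b - a) = c + b + (-a + -a) := by abel
        _ = a + b + c := by rw [h4]; abel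
    obtain ⟨k0, k1, k2⟩ := key (u 0) (u 1) (u 2)
    simp only [← sub_eq_add_neg, Pi.sub_apply]
    rcases hall i with rfl | rfl | rfl
    · rw [Pi.single_eq_of_ne (by decide), k0]
    · rw [Pi.single_eq_of_ne (by decide), k1]
    · rw [Pi.single_eq_same, k2]
  -- all translations
  have hsingle : ∀ r : Z3, ∀ x : V3, Pb h M (Pi.single r x) := by
    intro r x
    rcases eq_or_ne x 0 with rfl | hx
    · rw [Pi.single_zero]; exact pb_zero h hNM
    obtain ⟨n, hn, hnx⟩ := exists_lab3' h hsum hx
    have h2 := pb_conj h hNM hd hn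
    have e0 : lab3 h n 0 = 0 := by
      have := lab3_add h hn 0 0
      rw [add_zero] at this
      exact left_eq_add.1 this
    have e2 : (fun i => lab3 h n ((Pi.single 2 (u 0 + u 1 + u 2) : Z3 → V3) i)) = Pi.single 2 x := by
      funext i
      rcases eq_or_ne i 2 with rfl | hi
      · simp [hnx]
      · simp [hi, e0]
    rw [e2] at h2
    have hs : mU h ((Equiv.addRight (r - 2)).prodCongr (Equiv.refl Z3)) 0 ∈ M := by
      have e : mU h ((Equiv.addRight (r - 2)).prodCongr (Equiv.refl Z3)) 0 = tU h ((r - 2, 0), 0) := by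
        rw [tU]
        congr 1
        · ext j <;> simp
        · funext j; simp
      rw [e]
      exact hNM ⟨tU_mem_N9 h _, tU_mem h _⟩
    have h3 := M.mul_mem (M.mul_mem hs h2) (M.inv_mem hs)
    rw [shift_bd] at h3
    show bdHom _ ∈ M
    convert h3 using 3 with i
    rcases eq_or_ne i r with rfl | hi
    · simp
    · rw [Pi.single_eq_of_ne hi, Pi.single_eq_of_ne]
      simp only [Equiv.addRight_symm, Equiv.coe_addRight]
      exact fun e => hi (by linear_combination e)
  have hanyu : ∀ u : Z3 → V3, Pb h M u := fun u => by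
    have e : u = Pi.single 0 (u 0) + Pi.single 1 (u 1) + Pi.single 2 (u 2) := by
      funext i; rcases hall i with rfl | rfl | rfl <;> simp +decide [Pi.single_apply]
    rw [e]
    exact pb_add h hNM (pb_add h hNM (hsingle 0 _) (hsingle 1 _)) (hsingle 2 _)
  have hsU := hNM (sU_mem h).1
  -- diagonal matrices
  have hblock : ∀ c b : Z3 → Z3, mU h 1 (fun j : J9 => c j.1 + b j.1 * j.2) ∈ M := by
    intro c b
    have := (pb_iff h hNM _ c).2 (hanyu fun i => (0, b i))
    simp only [zU, pU, mU_mul, one_mul] at this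
    rw [bdHom_mU] at this
    convert this using 2
    ext j <;> simp
  have hswap : ∀ (π : Equiv.Perm J9) (f : J9 → Z3), mU h π f ∈ M →
      mU h (Equiv.prodComm Z3 Z3 * π * Equiv.prodComm Z3 Z3) (fun j => f (j.2, j.1)) ∈ M := by
    intro π f hf
    have := M.mul_mem (M.mul_mem hsU hf) hsU
    rw [sU, mU_mul, mU_mul] at this
    convert this using 2
    funext j
    simp
    rfl
  refine ⟨fun f hf => ?_, ?_⟩
  · set S : Z3 → Z3 := fun i => f (i, 0) + f (i, 1) + f (i, 2)
    set t : Z3 := 2 * S 0
    set s : Z3 := S 1 - S 0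
    have hS : S 0 + S 1 + S 2 = 0 := by
      have := hf
      rw [Fintype.sum_prod_type] at this
      simp only [sum_three] at this
      simp only [S]
      linear_combination this
    have hq : mU h 1 (fun j : J9 => t * (j.2 * j.2)) ∈ M := by
      have hq1 : mU h 1 (fun j : J9 => j.2 * j.2) ∈ M := by
        have := hNM (kron_mem_N h (one_mem (UU Z3 σ)) (qU_mem_UU h)).1
        rw [kron_one_eq, qU, bdHom_mU] at this
        convert this using 2
        ext j <;> simp
      have h2 : mU h 1 (fun j : J9 => 2 * (j.2 * j.2)) ∈ M := by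
        have := M.mul_mem hq1 hq1
        rw [mU_mul, one_mul] at this
        convert this using 2
        funext j
        simp [two_mul]
      rcases hall t with e | e | e <;> rw [e]
      · simp only [zero_mul]
        exact (show mU h (1 : Equiv.Perm J9) (fun _ => (0 : Z3)) = 1 from zU_zero h).symm ▸ one_mem M
      · simpa using hq1
      · exact h2
    have hδ : mU h 1 (fun j : J9 => s * (if j.2 = 2 then j.1 else 0)) ∈ M := by
      have := hswap _ _ (hblock 0 fun i => if i = 2 then s else 0)
      convert this using 2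
      · ext j <;> simp
      · funext j; by_cases e : j.2 = 2 <;> simp [e]
    set c : Z3 → Z3 := fun i => f (i, 0)
    set b : Z3 → Z3 := fun i => f (i, 1) - f (i, 0) - t
    have := M.mul_mem (M.mul_mem (hblock c b) hq) hδ
    rw [mU_mul, mU_mul, one_mul, one_mul] at this
    convert this using 2
    funext ⟨i, j⟩
    simp only [Equiv.Perm.one_apply]
    rcases hall j with rfl | rfl | rfl
    · simp [c, show (0 : Z3) ≠ 2 from by decide]
    · simp [c, b, show (1 : Z3) ≠ 2 from by decide] <;> ring
    · have h3 : (3 : Z3) = 0 := by decide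
      have hi : s * i + 2 * t = S i := by
        rcases hall i with rfl | rfl | rfl
        · simp only [s, t]; linear_combination S 0 * h3
        · simp only [s, t]; linear_combination S 0 * h3
        · simp only [s, t]; linear_combination 2 * hS - S 2 * h3
      simp only [c, b, if_true]
      simp only [S] at hi
      linear_combination -hi - f (i, 1) * h3
  -- permutations
  · let Pm : Subgroup (Equiv.Perm J9) :=
      { carrier := {π | mU h π 0 ∈ M}
        one_mem' := by
          show mU h (1 : Equiv.Perm J9) (0 : J9 → Z3) ∈ M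
          rw [show mU h (1 : Equiv.Perm J9) (0 : J9 → Z3) = 1 from zU_zero h]
          exact one_mem M
        mul_mem' := fun {a b} ha hb => by
          show mU h (a * b) 0 ∈ M
          have := M.mul_mem ha hb
          rw [mU_mul] at this
          convert this using 2
          funext j
          simp
        inv_mem' := fun {a} ha => by
          show mU h a⁻¹ 0 ∈ M
          have := M.inv_mem ha
          rw [mU_inv] at this
          convert this using 2
          funext j
          simp }
    let R : Z3 → Equiv.Perm J9 := fun r =>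
      Equiv.prodCongrRight fun i => Equiv.addRight (if i = r then 1 else 0)
    let T : Equiv.Perm J9 := Equiv.prodComm Z3 Z3
    have hR : ∀ r, R r ∈ Pm := fun r => by
      show mU h _ 0 ∈ M
      have := hsingle r (1, 0)
      rw [Pb] at this
      simp only [pU] at this
      rw [bdHom_mU] at this
      convert this using 2
      · refine congrArg Equiv.prodCongrRight (funext fun i => ?_)
        rcases eq_or_ne i r with rfl | hi <;> simp [*]
      · funext j
        rcases eq_or_ne j.1 r with e | e <;> simp [e]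
    have hT : T ∈ Pm := hsU
    have hC : ∀ r, T * R r * T ∈ Pm := fun r => mul_mem (mul_mem hT (hR r)) hT
    set cyc : Equiv.Perm J9 := T * R 0 * T * R 2 * R 1 * R 0 with hcyc
    have hcycm : cyc ∈ Pm := mul_mem (mul_mem (mul_mem (hC 0) (hR 2)) (hR 1)) (hR 0)
    have hswap01 : Equiv.swap ((0, 0) : J9) (0, 1) ∈ Pm := by
      have e : T * R 2 * R 0 * R 0 * (T * R 2 * T) * R 2 * (T * R 2 * T) * R 2 * (T * R 0 * T) =
          Equiv.swap ((0, 0) : J9) (0, 1) := by
        simp only [R, T]; decide
      rw [← e]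
      exact mul_mem (mul_mem (mul_mem (mul_mem (mul_mem (mul_mem (mul_mem (mul_mem hT (hR 2)) (hR 0))
        (hR 0)) (hC 2)) (hR 2)) (hC 2)) (hR 2)) (hC 0)
    have hnext : cyc (0, 0) = (0, 1) := by simp only [cyc, R, T]; decide
    have hchain : ∀ k : ℕ, Equiv.swap ((0, 0) : J9) ((cyc ^ k) (0, 0)) ∈ Pm := by
      intro k
      induction k with
      | zero => rw [pow_zero, Equiv.Perm.one_apply, Equiv.swap_self]; exact one_mem Pm
      | succ k ih =>
        have hstep : Equiv.swap ((cyc ^ k) (0, 0)) ((cyc ^ (k + 1)) (0, 0)) ∈ Pm := by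
          rw [pow_succ, Equiv.Perm.mul_apply, hnext, Equiv.swap_apply_apply]
          exact mul_mem (mul_mem (pow_mem hcycm k) hswap01) (inv_mem (pow_mem hcycm k))
        set a : J9 := (0, 0)
        set b := (cyc ^ k) a
        set c := (cyc ^ (k + 1)) a
        rcases eq_or_ne a b with e | e
        · rw [e]; exact hstep
        rcases eq_or_ne a c with e' | e'
        · rw [e', Equiv.swap_self]; exact one_mem Pm
        have : Equiv.swap a c = Equiv.swap a b * Equiv.swap b c * (Equiv.swap a b)⁻¹ := by
          rw [← Equiv.swap_apply_apply, Equiv.swap_apply_right,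
            Equiv.swap_apply_of_ne_of_ne e'.symm]
          intro e''
          rw [e'', Equiv.swap_self] at hstep
          exact e (by
            have := congrArg (fun x => x) e''
            exact absurd this (by
              intro hbc
              have h2 : (cyc ^ (k + 1)) a = (cyc ^ k) a := hbc
              rw [pow_succ, Equiv.Perm.mul_apply] at h2
              have h3 := (cyc ^ k).injective h2
              simp only [a] at h3
              rw [hnext] at h3
              exact absurd h3 (by decide)))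
        rw [this]
        exact mul_mem (mul_mem ih hstep) (inv_mem ih)
    have hcov : ∀ x : J9, ∃ k : Fin 9, (cyc ^ (k : ℕ)) (0, 0) = x := by
      simp only [cyc, R, T]; decide
    intro π
    suffices ht : Pm = ⊤ from (ht ▸ Subgroup.mem_top π : π ∈ Pm)
    refine top_le_iff.1 (Equiv.Perm.closure_isSwap (α := J9) ▸ (Subgroup.closure_le _).2 ?_)
    rintro τ ⟨a, b, hab, rfl⟩
    obtain ⟨k, rfl⟩ := hcov a
    obtain ⟨l, rfl⟩ := hcov b
    have hk := hchain k
    have hl := hchain l
    set o : J9 := (0, 0)
    set x := (cyc ^ (k : ℕ)) o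
    set y := (cyc ^ (l : ℕ)) o
    rcases eq_or_ne o x with e | e
    · rw [← e]; exact hl
    rcases eq_or_ne o y with e' | e'
    · rw [← e', Equiv.swap_comm]; exact hk
    have : Equiv.swap x y = Equiv.swap o x * Equiv.swap o y * (Equiv.swap o x)⁻¹ := by
      rw [← Equiv.swap_apply_apply, Equiv.swap_apply_left, Equiv.swap_apply_of_ne_of_ne e'.symm hab.symm]
    rw [this]
    exact mul_mem (mul_mem hk hl) (inv_mem hk)

/-- Block elements of `M` lie in the normaliser, or `M` is full. -/
theorem mem_N9_or_full {a : Z3 → GL Z3 F} (ha : ∀ i, a i ∈ UU Z3 σ) (hM : bdHom a ∈ M) :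
    bdHom a ∈ N9 w ∨ Full h M := by
  by_cases hF : Full h M
  · exact Or.inr hF
  have hsum : ∀ u : Z3 → V3, Pb h M u → u 0 + u 1 + u 2 = 0 := fun u hu => by
    by_contra hne
    exact hF (full_of_pb h hNM hu hne)
  refine Or.inl ?_
  -- normalise the first block
  have hk : bdHom (fun _ : Z3 => (a 0)⁻¹) ∈ N9 w ⊓ SU J9 σ := by
    rw [← kron_one_eq]; exact (kron_mem_N h (one_mem _) (inv_mem (ha 0))).1
  suffices hg : bdHom (fun i => (a 0)⁻¹ * a i) ∈ N9 w by
    have := (N9 w).mul_mem ((N9 w).inv_mem hk.1) hg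
    rw [← map_inv, ← map_mul] at this
    convert this using 2
    funext i
    simp
  set b : Z3 → GL Z3 F := fun i => (a 0)⁻¹ * a i with hb
  have hbU : ∀ i, b i ∈ UU Z3 σ := fun i => mul_mem (inv_mem (ha 0)) (ha i)
  have hb0 : b 0 = 1 := inv_mul_cancel _
  have hbM : bdHom b ∈ M := by
    have := M.mul_mem (hNM hk) hM
    rwa [← map_mul] at this
  -- images of the translations
  have himg : ∀ d : Z3 → GL Z3 F, (∀ i, d i ∈ UU Z3 σ) → bdHom d ∈ M → ∀ v,
      Pb h M fun i => lab3 h (d i) v := by
    intro d hd hdM v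
    have := M.mul_mem (M.mul_mem hdM (pb_const h hNM v)) (M.inv_mem hdM)
    rw [← map_mul, ← map_inv, ← map_mul] at this
    choose c hc using fun i => conj_pU h (hd i) v
    refine (pb_iff h hNM _ c).1 ?_
    convert this using 2
    funext i
    exact (hc i).symm
  have hA : ∀ v, v + lab3 h (b 1) v + lab3 h (b 2) v = 0 := fun v => by
    have := hsum _ (himg b hbU hbM v)
    simpa [hb0, lab3_one] using this
  set e : Z3 → GL Z3 F := fun i => b i * fU h * (b i)⁻¹ * (fU h)⁻¹ with he
  have heU : ∀ i, e i ∈ UU Z3 σ := fun i =>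
    mul_mem (mul_mem (mul_mem (hbU i) (fU_mem_UU h)) (inv_mem (hbU i))) (inv_mem (fU_mem_UU h))
  have heM : bdHom e ∈ M := by
    have hkf : bdHom (fun _ : Z3 => fU h) ∈ M := by
      rw [← kron_one_eq]; exact hNM (kron_mem_N h (one_mem _) (fU_mem_UU h)).1
    have := M.mul_mem (M.mul_mem (M.mul_mem hbM hkf) (M.inv_mem hbM)) (M.inv_mem hkf)
    rw [← map_mul, ← map_inv, ← map_inv, ← map_mul, ← map_mul] at this
    exact this
  have hlab : ∀ i x, lab3 h (e i) (lab3 h (fU h) x) =
      lab3 h (b i) (lab3 h (fU h) (lab3 h (b i)⁻¹ x)) := fun i x => by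
    have hn : ∀ g : GL Z3 F, g ∈ UU Z3 σ → g ∈ N3 w := fun g hg => UU_le_N3 h hg
    rw [← lab3_mul h (hn _ (heU i)) (fU_mem_N3 h), he]
    simp only [inv_mul_cancel_right]
    rw [lab3_mul h (hn _ (mul_mem (hbU i) (fU_mem_UU h))) (hn _ (inv_mem (hbU i))),
      lab3_mul h (hn _ (hbU i)) (fU_mem_N3 h)]
  -- the blocks act in the same way
  have hid : ∀ i v, lab3 h (b i) v = v := by
    set p := lab3 h (b 1) (1, 0)
    set q := lab3 h (b 1) (0, 1)
    set p' := lab3 h (b 2) (1, 0)
    set q' := lab3 h (b 2) (0, 1)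
    have hdet : ∀ i, (lab3 h (b i) (1, 0)).1 * (lab3 h (b i) (0, 1)).2 -
        (lab3 h (b i) (1, 0)).2 * (lab3 h (b i) (0, 1)).1 = 1 := fun i => by
      have := lab3_B3 h (hbU i) (1, 0) (0, 1)
      simp [B3] at this
      linear_combination -this
    have hinv : ∀ i x, lab3 h (b i)⁻¹ x =
        lin ((lab3 h (b i) (0, 1)).2, -(lab3 h (b i) (1, 0)).2)
          (-(lab3 h (b i) (0, 1)).1, (lab3 h (b i) (1, 0)).1) x := fun i x => by
      set p := lab3 h (b i) (1, 0) with hp
      set q := lab3 h (b i) (0, 1) with hq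
      set y := lin (q.2, -p.2) (-q.1, p.1) x with hy
      have hd : p.1 * q.2 - p.2 * q.1 = 1 := hdet i
      have : x = lab3 h (b i) y := by
        rw [lab3_eq_lin h (hbU i), hy, ← hp, ← hq]
        simp only [lin, Prod.smul_mk, Prod.mk_add_mk, smul_eq_mul, Prod.ext_iff]
        constructor
        · simp only [Prod.fst_add, Prod.smul_fst, smul_eq_mul]
          linear_combination -x.1 * hd
        · simp only [Prod.snd_add, Prod.smul_snd, smul_eq_mul]
          linear_combination -x.2 * hd
      conv_lhs => rw [this]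
      exact lab3_inv h (UU_le_N3 h (hbU i)) y
    have hp' : p' = -(1, 0) - p := by
      have := hA (1, 0)
      rw [show p' = -((1, 0) + p) from eq_neg_of_add_eq_zero_right this]; abel
    have hq' : q' = -(0, 1) - q := by
      have := hA (0, 1)
      rw [show q' = -((0, 1) + q) from eq_neg_of_add_eq_zero_right this]; abel
    have key : ∀ p q : V3, p.1 * q.2 - p.2 * q.1 = 1 →
        (-(1, 0) - p : V3).1 * (-(0, 1) - q : V3).2 - (-(1, 0) - p : V3).2 * (-(0, 1) - q : V3).1 = 1 →
        (∀ x : V3, x = (1, 0) ∨ x = (0, 1) →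
          lin (0, 1) (2, 0) x + lin p q (lin (0, 1) (2, 0) (lin (q.2, -p.2) (-q.1, p.1) x)) +
            lin (-(1, 0) - p) (-(0, 1) - q) (lin (0, 1) (2, 0)
              (lin ((-(0, 1) - q : V3).2, -(-(1, 0) - p : V3).2)
                (-(-(0, 1) - q : V3).1, (-(1, 0) - p : V3).1) x)) = 0) →
        p = (1, 0) ∧ q = (0, 1) := by decide
    have hF : ∀ x, lab3 h (fU h) x = lin (0, 1) (2, 0) x := fun x => by
      rw [lab3_fU]
      obtain ⟨a, b⟩ := x
      have : ∀ a b : Z3, ((-b, a) : V3) = lin (0, 1) (2, 0) (a, b) := by decide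
      exact this a b
    obtain ⟨hp1, hq1⟩ := key p q (hdet 1) (by rw [← hp', ← hq']; exact hdet 2) (by
      intro x _
      have := hsum _ (himg e heU heM (lab3 h (fU h) x))
      rw [← hp', ← hq']
      rw [hlab, hlab, hlab, hb0, inv_one, lab3_one, lab3_one, hinv, hinv, lab3_eq_lin h (hbU 1),
        lab3_eq_lin h (hbU 2)] at this
      simp only [hF] at this
      exact this)
    intro i v
    have hall : ∀ i : Z3, i = 0 ∨ i = 1 ∨ i = 2 := by decide
    have hv : ∀ v : V3, lin (1, 0) (0, 1) v = v := by decide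
    rcases hall i with rfl | rfl | rfl
    · rw [hb0, lab3_one]
    · rw [lab3_eq_lin h (hbU 1)]
      show lin p q v = v
      rw [hp1, hq1, hv]
    · rw [lab3_eq_lin h (hbU 2)]
      show lin p' q' v = v
      rw [hp', hq', hp1, hq1]
      revert v; decide
  choose c u hcu using fun i => exists_of_lab3_id h (hbU i) (hid i)
  have hu : Pb h M u := (pb_iff h hNM u c).1 (by rw [← funext hcu]; exact hbM)
  have hs := hsum u hu
  have h2 : N9 w ⊓ SU J9 σ ≤ N9 w ⊓ SU J9 σ := le_rfl
  have hlin : Pb h (N9 w ⊓ SU J9 σ) u := by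
    have e : u = (fun _ : Z3 => u 0) + fun i => i • (u 1 - u 0) := by
      funext i
      have hall : ∀ i : Z3, i = 0 ∨ i = 1 ∨ i = 2 := by decide
      rcases hall i with rfl | rfl | rfl
      · simp
      · simp
      · show u 2 = u 0 + (2 : Z3) • (u 1 - u 0)
        have key : ∀ a b c : V3, a + b + c = 0 → c = -(a + b) := fun a b c e =>
          eq_neg_of_add_eq_zero_right e
        have key2 : ∀ x : V3, -x = (2 : Z3) • x := by decide
        have key3 : ∀ x : V3, x + x + x = 0 := by decide
        rw [key _ _ _ hs, key2, smul_add, smul_sub, ← add_sub_assoc, two_smul, two_smul]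
        calc u 0 + u 0 + (u 1 + u 1) = u 0 + (u 1 + u 1) + (-(u 0 + u 0)) + ((u 0 + u 0 + u 0) ) := by abel
          _ = u 0 + (u 1 + u 1) - (u 0 + u 0) := by rw [key3]; abel
    rw [e]
    exact pb_add h h2 (pb_const h h2 _) (pb_linear h h2 _)
  have := (pb_iff h h2 u c).2 hlin
  rw [← funext hcu] at this
  exact this.1

end CfsgLib.Geometric.SUNine.Two
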