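import Cfsg.Agent.Lib.Geometric.SLNine.Defs
import Cfsg.Agent.Lib.Geometric.SUNine.UForm

/-!
Monomial matrices over the field of four elements with entries given by phases, and the basic facts
about the isometry group of the standard unitary form over this field.
-/

set_option autoImplicit false
set_option linter.unusedSectionVars false

namespace CfsgLib.Geometric.SUNine.Two

open Matrix
open CfsgLib.Geometric.SLNine

variable {F : Type*} [Field F]

/-- The facts about the field with four elements that are used. -/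
structure Four (σ : F ≃+* F) (w : F) : Prop where
  two : (2 : F) = 0
  root : IsPrimitiveRoot w 3
  all : ∀ x : F, x ≠ 0 → ∃ a : ZMod 3, x = ph w a
  frob : ∀ x : F, σ x = x ^ 2

lemma Four.of_card [Fintype F] (hF : Fintype.card F = 4) {σ : F ≃+* F} (hσ : ∀ x, σ x = x ^ 2)
    {w : F} (hw : IsPrimitiveRoot w 3) : Four σ w := by
  refine ⟨?_, hw, fun x hx => ?_, hσ⟩
  · have h : ((Fintype.card F : ℕ) : F) = 0 := FiniteField.cast_card_eq_zero F
    rw [hF] at h
    have : (2 : F) * 2 = 0 := by rw [← h]; norm_num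
    exact (mul_self_eq_zero.1 this)
  · have h3 : x ^ 3 = 1 := by
      have := FiniteField.pow_card_sub_one_eq_one x hx
      rwa [hF] at this
    obtain ⟨i, hi, rfl⟩ := hw.eq_pow_of_pow_eq_one h3
    exact ⟨(i : ZMod 3), by rw [ph, ZMod.val_natCast, Nat.mod_eq_of_lt hi]⟩

variable {σ : F ≃+* F} {w : F}

lemma Four.ph_add (h : Four σ w) (a b : ZMod 3) : ph w (a + b) = ph w a * ph w b := by
  rw [ph, ph, ph, ← pow_add, ZMod.val_add]
  exact (pow_eq_pow_mod _ h.root.pow_eq_one).symm

lemma ph_zero : ph w 0 = 1 := by simp [ph]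

lemma Four.ph_ne_zero (h : Four σ w) (a : ZMod 3) : ph w a ≠ 0 :=
  pow_ne_zero _ (h.root.ne_zero (by norm_num))

lemma Four.ph_inj (h : Four σ w) {a b : ZMod 3} (e : ph w a = ph w b) : a = b :=
  ZMod.val_injective 3 (h.root.pow_inj (ZMod.val_lt a) (ZMod.val_lt b) e)

lemma Four.σ_ph (h : Four σ w) (a : ZMod 3) : σ (ph w a) = ph w (-a) := by
  rw [h.frob, sq, ← h.ph_add]
  exact congrArg (ph w) (by revert a; decide)

lemma Four.ph_sum (h : Four σ w) {α : Type*} (s : Finset α) (f : α → ZMod 3) :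
    ∏ i ∈ s, ph w (f i) = ph w (∑ i ∈ s, f i) := by
  classical
  induction s using Finset.induction_on with
  | empty => simp [ph]
  | insert i s hi ih => rw [Finset.prod_insert hi, Finset.sum_insert hi, h.ph_add, ih]

lemma Four.charTwo (h : Four σ w) : CharP F 2 :=
  CharTwo.of_one_ne_zero_of_two_eq_zero one_ne_zero h.two

lemma Four.add_self (h : Four σ w) (x : F) : x + x = 0 := by
  rw [← two_mul, h.two, zero_mul]

lemma Four.neg_eq (h : Four σ w) (x : F) : -x = x :=
  neg_eq_of_add_eq_zero_left (h.add_self x)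

variable {ι : Type} [Fintype ι] [DecidableEq ι]

/-- The monomial matrix sending `e j` to `ph w (f j) • e (π j)`. -/
def mono (w : F) (π : Equiv.Perm ι) (f : ι → ZMod 3) : Matrix ι ι F :=
  Matrix.of fun i j => if i = π j then ph w (f j) else 0

lemma mono_apply (π : Equiv.Perm ι) (f : ι → ZMod 3) (i j : ι) :
    mono w π f i j = if i = π j then ph w (f j) else 0 := rfl

lemma Four.mono_mul (h : Four σ w) (π ρ : Equiv.Perm ι) (f g : ι → ZMod 3) :
    mono w π f * mono w ρ g = mono w (π * ρ) (fun j => f (ρ j) + g j) := by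
  ext i j
  rw [Matrix.mul_apply, Finset.sum_eq_single (ρ j)]
  · by_cases e : i = π (ρ j) <;> simp [mono_apply, e, h.ph_add]
  · intro x _ hx; simp [mono_apply, hx]
  · simp

lemma mono_one : mono w (1 : Equiv.Perm ι) 0 = (1 : Matrix ι ι F) := by
  ext i j
  simp [mono_apply, Matrix.one_apply, ph_zero]

lemma Four.mono_smul (h : Four σ w) (c : ZMod 3) (π : Equiv.Perm ι) (f : ι → ZMod 3) :
    ph w c • mono w π f = mono w π (fun j => c + f j) := by
  ext i j
  by_cases e : i = π j <;> simp [mono_apply, e, h.ph_add]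

lemma Four.mono_inj (h : Four σ w) {π ρ : Equiv.Perm ι} {f g : ι → ZMod 3}
    (e : mono w π f = mono w ρ g) : π = ρ ∧ f = g := by
  have hπ : π = ρ := Equiv.ext fun j => by
    have := congrFun (congrFun e (π j)) j
    simp only [mono_apply, if_true] at this
    by_contra hne
    rw [if_neg hne] at this
    exact h.ph_ne_zero _ this
  subst hπ
  refine ⟨rfl, funext fun j => h.ph_inj ?_⟩
  simpa [mono_apply] using congrFun (congrFun e (π j)) j

lemma Four.mono_det (h : Four σ w) (π : Equiv.Perm ι) (f : ι → ZMod 3) :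
    (mono w π f).det = ph w (∑ j, f j) := by
  have e : mono w π f = (1 : Matrix ι ι F).submatrix π.symm id * Matrix.diagonal (fun j => ph w (f j)) := by
    ext i j
    rw [Matrix.mul_diagonal]
    by_cases e : i = π j
    · subst e; simp [mono_apply, Matrix.one_apply]
    · simp [mono_apply, e, Matrix.one_apply, Equiv.symm_apply_eq]
  rw [e, Matrix.det_mul, Matrix.det_permute, Matrix.det_one, mul_one, Matrix.det_diagonal, h.ph_sum]
  rcases Int.units_eq_one_or (Equiv.Perm.sign π.symm) with hs | hs <;> simp [hs, h.neg_eq]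

/-- The invertible monomial matrix. -/
def mU (h : Four σ w) (π : Equiv.Perm ι) (f : ι → ZMod 3) : GL ι F where
  val := mono w π f
  inv := mono w π⁻¹ (fun j => - f (π⁻¹ j))
  val_inv := by
    rw [h.mono_mul, mul_inv_cancel, ← mono_one]
    congr 1
    funext j
    simp
  inv_val := by
    rw [h.mono_mul, inv_mul_cancel, ← mono_one]
    congr 1
    funext j
    simp

@[simp] lemma coe_mU (h : Four σ w) (π : Equiv.Perm ι) (f : ι → ZMod 3) :
    (mU h π f : Matrix ι ι F) = mono w π f := rfl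

lemma mU_mul (h : Four σ w) (π ρ : Equiv.Perm ι) (f g : ι → ZMod 3) :
    mU h π f * mU h ρ g = mU h (π * ρ) (fun j => f (ρ j) + g j) :=
  Units.ext (h.mono_mul π ρ f g)

lemma mU_inv (h : Four σ w) (π : Equiv.Perm ι) (f : ι → ZMod 3) :
    (mU h π f)⁻¹ = mU h π⁻¹ (fun j => - f (π⁻¹ j)) := Units.ext rfl

lemma mU_mem_UU (h : Four σ w) (π : Equiv.Perm ι) (f : ι → ZMod 3) : mU h π f ∈ UU ι σ := by
  rw [mem_UU_iff]
  ext i j
  rw [Matrix.mul_apply, Finset.sum_eq_single (π i)]
  · by_cases e : i = j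
    · subst e; simp [mono_apply, h.σ_ph, ← h.ph_add, ph_zero]
    · simp [mono_apply, e]
  · intro x _ hx; simp [mono_apply, hx]
  · simp

lemma det_mU (h : Four σ w) (π : Equiv.Perm ι) {f : ι → ZMod 3} (hf : ∑ j, f j = 0) :
    Matrix.GeneralLinearGroup.det (mU h π f) = 1 :=
  Units.ext (by simp [h.mono_det, hf, ph_zero])

/-- The entries of the inverse of an isometry. -/
lemma inv_apply {g : GL ι F} (hg : g ∈ UU ι σ) (hσ2 : ∀ x, σ (σ x) = x) (i j : ι) :
    ((g⁻¹ : GL ι F) : Matrix ι ι F) i j = σ ((g : Matrix ι ι F) j i) := by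
  have h1 := (mem_UU_iff σ g).1 hg
  have h2 : ((g : Matrix ι ι F).map σ)ᵀ * (g : Matrix ι ι F) = 1 := by
    have := congrArg Matrix.transpose h1
    rwa [Matrix.transpose_mul, Matrix.transpose_one, Matrix.transpose_transpose] at this
  have h3 : ((g⁻¹ : GL ι F) : Matrix ι ι F) = ((g : Matrix ι ι F).map σ)ᵀ := by
    rw [← mul_one ((g : Matrix ι ι F).map σ)ᵀ, ← Units.mul_inv g, ← mul_assoc, h2, one_mul]
  simp [h3]

lemma Four.σσ (h : Four σ w) (x : F) : σ (σ x) = x := by
  rcases eq_or_ne x 0 with rfl | hx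
  · simp
  · obtain ⟨a, rfl⟩ := h.all x hx
    rw [h.σ_ph, h.σ_ph, neg_neg]

/-- The ambient group. -/
abbrev SU (ι : Type) [Fintype ι] [DecidableEq ι] (σ : F ≃+* F) : Subgroup (GL ι F) :=
  UU ι σ ⊓ Cfsg.Geo.specialLinear ι F

lemma mU_mem_SU (h : Four σ w) (π : Equiv.Perm ι) {f : ι → ZMod 3} (hf : ∑ j, f j = 0) :
    mU h π f ∈ SU ι σ :=
  ⟨mU_mem_UU h π f, det_mU h π hf⟩

lemma Four.pmat_eq (h : Four σ w) (π : Equiv.Perm J9) : pmat (F := F) π = mono w π 0 := by
  ext i j
  rcases Int.units_eq_one_or (Equiv.Perm.sign π) with hs | hs <;>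
    simp [pmat, mono_apply, hs, ph_zero, h.neg_eq]

lemma pmHom_eq (h : Four σ w) (π : Equiv.Perm J9) : (pmHom π : GL J9 F) = mU h π 0 :=
  Units.ext (h.pmat_eq π)

lemma P3_eq (v : V3) : P3 w v = mono w (Equiv.addRight v.1) (fun j => v.2 * j) := rfl

lemma Four.T9_eq (h : Four σ w) (v : V9) :
    T9 w v = mono w ((Equiv.addRight v.1.1).prodCongr (Equiv.addRight v.2.1))
      (fun j => v.1.2 * j.1 + v.2.2 * j.2) := by
  ext ⟨i, k⟩ ⟨j, l⟩
  simp only [T9, P3_eq, Matrix.kronecker_apply, mono_apply, Equiv.prodCongr_apply, Prod.map,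
    Prod.mk.injEq]
  simp only [Equiv.coe_addRight, h.ph_add]
  by_cases e1 : i = j + v.1.1 <;> by_cases e2 : k = l + v.2.1 <;> simp [e1, e2]

end CfsgLib.Geometric.SUNine.Two
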