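import Cfsg.Agent.Lib.Geometric.SUNine.Two.Blocks

/-!
The two parity involutions in dimension nine over the field of four elements, the action of the
centraliser of the parity of the first factor on three coordinates, and the count of fixed vectors.
-/

set_option autoImplicit false
set_option linter.unusedSectionVars false

namespace CfsgLib.Geometric.SUNine.Two

open Matrix
open CfsgLib.Geometric.SLNine

variable {F : Type*} [Field F] {σ : F ≃+* F} {w : F}

local notation "Z3" => ZMod 3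

/-- The negation of the first coordinate. -/
def tPerm : Equiv.Perm J9 := (Equiv.neg Z3).prodCongr (Equiv.refl Z3)

/-- The negation of both coordinates. -/
def jPerm : Equiv.Perm J9 := Equiv.neg J9

/-- The parity of the first factor. -/
def tT (h : Four σ w) : GL J9 F := mU h tPerm 0

/-- The parity of both factors. -/
def jT (h : Four σ w) : GL J9 F := mU h jPerm 0

lemma tT_mem (h : Four σ w) :
    tT h ∈ N9 w ⊓ SU J9 σ ∧ ∀ v, tT h * tU h v * (tT h)⁻¹ = tU h (-v.1, v.2) := by
  have key : ∀ v, tT h * tU h v * (tT h)⁻¹ = tU h (-v.1, v.2) := by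
    intro v
    rw [mul_inv_eq_iff_eq_mul, tT, tU, tU, mU_mul, mU_mul]
    congr 1
    · ext j <;> simp [tPerm] <;> ring
    · funext j; simp [tPerm]
  exact ⟨⟨mem_N9 h fun v => ⟨_, 0, by rw [key, zU_zero, one_mul]⟩, mU_mem_SU h _ (by simp)⟩, key⟩

lemma jT_mem (h : Four σ w) :
    jT h ∈ N9 w ⊓ SU J9 σ ∧ ∀ v, jT h * tU h v * (jT h)⁻¹ = tU h (-v) := by
  have key : ∀ v, jT h * tU h v * (jT h)⁻¹ = tU h (-v) := by
    intro v
    rw [mul_inv_eq_iff_eq_mul, jT, tU, tU, mU_mul, mU_mul]
    congr 1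
    · ext j <;> simp [jPerm] <;> ring
    · funext j; simp [jPerm]
  exact ⟨⟨mem_N9 h fun v => ⟨_, 0, by rw [key, zU_zero, one_mul]⟩, mU_mem_SU h _ (by simp)⟩, key⟩

lemma lab_tT (h : Four σ w) (v : V9) : lab h (tT h) v = (-v.1, v.2) :=
  lab_eq h (tT_mem h).1.1 (c := 0) (by rw [(tT_mem h).2, zU_zero, one_mul])

lemma lab_jT (h : Four σ w) (v : V9) : lab h (jT h) v = -v :=
  lab_eq h (jT_mem h).1.1 (c := 0) (by rw [(jT_mem h).2, zU_zero, one_mul])

lemma tT_eq_kron (h : Four σ w) : tT h = kronHom (mU h (Equiv.neg Z3) 0, 1) := by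
  refine Units.ext (Matrix.ext fun i j => ?_)
  obtain ⟨i, k⟩ := i
  obtain ⟨j, l⟩ := j
  rw [tT, coe_mU, coe_kronHom, Matrix.kronecker_apply, coe_mU, Units.val_one, mono_apply, mono_apply,
    Matrix.one_apply]
  by_cases e1 : i = -j <;> by_cases e2 : k = l <;> simp [tPerm, e1, e2, ph_zero]

lemma jT_eq_kron (h : Four σ w) :
    jT h = kronHom (mU h (Equiv.neg Z3) 0, mU h (Equiv.neg Z3) 0) := by
  refine Units.ext (Matrix.ext fun i j => ?_)
  obtain ⟨i, k⟩ := i
  obtain ⟨j, l⟩ := j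
  rw [jT, coe_mU, coe_kronHom, Matrix.kronecker_apply, coe_mU, mono_apply, mono_apply, mono_apply]
  by_cases e1 : i = -j <;> by_cases e2 : k = -l <;> simp [jPerm, e1, e2, ph_zero]

lemma kron_one_comm_t (h : Four σ w) (a : GL Z3 F) : Commute (kronHom ((1 : GL Z3 F), a)) (tT h) := by
  rw [tT_eq_kron]
  exact (show Commute ((1 : GL Z3 F), a) (mU h (Equiv.neg Z3) 0, (1 : GL Z3 F)) from
    Prod.ext (by simp) (by simp)).map kronHom

lemma apply_of_commute (h : Four σ w) {g : GL J9 F} (hg : Commute g (tT h)) (i j : J9) :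
    (g : Matrix J9 J9 F) (tPerm i) (tPerm j) = (g : Matrix J9 J9 F) i j := by
  have e : ((g * tT h : GL J9 F) : Matrix J9 J9 F) (tPerm i) j =
      ((tT h * g : GL J9 F) : Matrix J9 J9 F) (tPerm i) j := by rw [hg.eq]
  rw [Units.val_mul, Units.val_mul, tT, coe_mU, Matrix.mul_apply, Matrix.mul_apply,
    Finset.sum_eq_single (tPerm j), Finset.sum_eq_single i] at e
  · simpa [mono_apply, ph_zero] using e
  · intro k _ hk
    rw [mono_apply, if_neg, zero_mul]
    exact fun e => hk (tPerm.injective e).symm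
  · simp
  · intro k _ hk; simp [mono_apply, hk]
  · simp

/-- The block fixed by the parity of the first factor. -/
def cZ (g : Matrix J9 J9 F) : Matrix Z3 Z3 F := Matrix.of fun k l => g (0, k) (0, l)

lemma cZ_mul (h : Four σ w) {A B : Matrix J9 J9 F}
    (hA : ∀ i j, A (tPerm i) (tPerm j) = A i j) (hB : ∀ i j, B (tPerm i) (tPerm j) = B i j) :
    cZ (A * B) = cZ A * cZ B := by
  ext k l
  show (A * B) (0, k) (0, l) = ∑ y, A (0, k) (0, y) * B (0, y) (0, l)
  rw [Matrix.mul_apply, Fintype.sum_prod_type, sum_three, add_assoc, add_eq_left,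
    ← Finset.sum_add_distrib]
  refine Finset.sum_eq_zero fun y _ => ?_
  have e2 : tPerm ((1, y) : J9) = (2, y) := by simp [tPerm]; decide
  have e0 : ∀ z : Z3, tPerm ((0, z) : J9) = (0, z) := fun z => by simp [tPerm]
  have a2 := hA (0, k) (1, y)
  have b2 := hB (1, y) (0, l)
  rw [e0, e2] at a2 b2
  rw [a2, b2, h.add_self]

lemma cZ_one : cZ (1 : Matrix J9 J9 F) = 1 := by
  ext k l
  show (1 : Matrix J9 J9 F) (0, k) (0, l) = (1 : Matrix Z3 Z3 F) k l
  simp [Matrix.one_apply]

lemma cZ_mul' (h : Four σ w) {g g' : GL J9 F} (hg : Commute g (tT h)) (hg' : Commute g' (tT h)) :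
    cZ ((g * g' : GL J9 F) : Matrix J9 J9 F) =
      cZ (g : Matrix J9 J9 F) * cZ (g' : Matrix J9 J9 F) := by
  rw [Units.val_mul]
  exact cZ_mul h (apply_of_commute h hg) (apply_of_commute h hg')

/-- The induced isometry in dimension three. -/
lemma exists_cZ (h : Four σ w) {g : GL J9 F} (hg : g ∈ SU J9 σ) (hc : Commute g (tT h)) :
    ∃ a ∈ UU Z3 σ, (a : Matrix Z3 Z3 F) = cZ (g : Matrix J9 J9 F) := by
  refine ⟨⟨cZ (g : Matrix J9 J9 F), cZ ((g⁻¹ : GL J9 F) : Matrix J9 J9 F), ?_, ?_⟩, ?_, rfl⟩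
  · rw [← cZ_mul' h hc hc.inv_left, mul_inv_cancel, Units.val_one, cZ_one]
  · rw [← cZ_mul' h hc.inv_left hc, inv_mul_cancel, Units.val_one, cZ_one]
  · rw [mem_UU_iff]
    show (cZ (g : Matrix J9 J9 F))ᵀ * (cZ (g : Matrix J9 J9 F)).map σ = 1
    have e := cZ_mul h (A := (g : Matrix J9 J9 F)ᵀ) (B := (g : Matrix J9 J9 F).map σ)
      (fun i j => by simp [apply_of_commute h hc]) (fun i j => by simp [apply_of_commute h hc])
    rw [(mem_UU_iff σ g).1 hg.1, cZ_one] at e
    rw [e]
    rfl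

lemma cZ_mU (h : Four σ w) (π : Equiv.Perm J9) (f : J9 → Z3) (k l : Z3) :
    cZ ((mU h π f : GL J9 F) : Matrix J9 J9 F) k l =
      if ((0, k) : J9) = π (0, l) then ph w (f (0, l)) else 0 := rfl

lemma cZ_kron (a b : GL Z3 F) :
    cZ ((kronHom (a, b) : GL J9 F) : Matrix J9 J9 F) =
      (a : Matrix Z3 Z3 F) 0 0 • (b : Matrix Z3 Z3 F) := by
  ext k l
  simp [cZ, Matrix.kronecker_apply]

/-- The fixed vectors of a permutation matrix, by orbit representatives. -/
lemma card_fixed (h : Four σ w) [Finite F] (π : Equiv.Perm J9) (s : Finset J9) (r : J9 → J9)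
    (hr : ∀ x, r x ∈ s) (hr1 : ∀ x ∈ s, r x = x) (hrπ : ∀ x, r (π x) = r x)
    (hx : ∀ x, x = r x ∨ x = π (r x)) :
    Nat.card {v : J9 → F // (mU h π 0 : GL J9 F).val.mulVec v = v} = Nat.card F ^ s.card := by
  have hmv : ∀ v : J9 → F, (mU h π 0 : GL J9 F).val.mulVec v = fun x => v (π⁻¹ x) := fun v => by
    funext x
    rw [coe_mU, Matrix.mulVec, dotProduct, Finset.sum_eq_single (π⁻¹ x)]
    · simp [mono_apply, ph_zero]
    · intro k _ hk
      rw [mono_apply, if_neg, zero_mul]
      exact fun e => hk (by simp [e])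
    · simp
  rw [← Fintype.card_coe, ← Nat.card_eq_fintype_card, ← Nat.card_fun]
  refine Nat.card_congr
    { toFun := fun v x => v.1 x
      invFun := fun u => ⟨fun x => u ⟨r x, hr x⟩, by
        rw [hmv]
        funext x
        have : r (π⁻¹ x) = r x := by rw [← hrπ (π⁻¹ x), ← Equiv.Perm.mul_apply, mul_inv_cancel, Equiv.Perm.one_apply]
        simp only [this]⟩
      left_inv := fun v => Subtype.ext (funext fun x => by
        show v.1 (r x) = v.1 x
        have hv := congrFun ((hmv v.1).symm.trans v.2)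
        rcases hx x with e | e
        · rw [← e]
        · conv_rhs => rw [e, ← hv (π (r x))]
          simp)
      right_inv := fun u => funext fun x => by
        show u ⟨r x, _⟩ = u x
        congr 1
        exact Subtype.ext (hr1 x.1 x.2) }

/-- The parity of both factors is not conjugate to the other parities. -/
lemma not_conj (h : Four σ w) [Finite F] (hF : 1 < Nat.card F) (g : GL J9 F) :
    g * jT h * g⁻¹ ≠ tT h ∧ g * jT h * g⁻¹ ≠ mU h (Equiv.prodComm Z3 Z3) 0 ∧
      g * jT h * g⁻¹ ≠ mU h (Equiv.prodComm Z3 Z3) 0 * tT h * mU h (Equiv.prodComm Z3 Z3) 0 := by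
  have key : ∀ (π ρ : Equiv.Perm J9) (g : GL J9 F), g * mU h π 0 * g⁻¹ = mU h ρ 0 →
      Nat.card {v : J9 → F // (mU h π 0 : GL J9 F).val.mulVec v = v} =
        Nat.card {v : J9 → F // (mU h ρ 0 : GL J9 F).val.mulVec v = v} := by
    intro π ρ g e
    refine Nat.card_congr
      { toFun := fun v => ⟨g.val.mulVec v.1, ?_⟩
        invFun := fun v => ⟨(g⁻¹ : GL J9 F).val.mulVec v.1, ?_⟩
        left_inv := fun v => Subtype.ext (by simp [Matrix.mulVec_mulVec])
        right_inv := fun v => Subtype.ext (by simp [Matrix.mulVec_mulVec]) }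
    · rw [Matrix.mulVec_mulVec, ← Units.val_mul, ← e, inv_mul_cancel_right, Units.val_mul,
        ← Matrix.mulVec_mulVec, v.2]
    · rw [Matrix.mulVec_mulVec, ← Units.val_mul,
        show mU h π 0 * g⁻¹ = g⁻¹ * mU h ρ 0 by rw [← e]; group,
        Units.val_mul, ← Matrix.mulVec_mulVec, v.2]
  let rneg : Z3 → Z3 := fun a => if a = 2 then 1 else a
  have hj := card_fixed h jPerm {(0, 0), (0, 1), (1, 0), (1, 1), (1, 2)}
    (fun x => if x.1 = 0 then (0, rneg x.2) else if x.1 = 1 then x else -x)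
    (by decide) (by decide) (by decide) (by decide)
  have ht := card_fixed h tPerm {(0, 0), (0, 1), (0, 2), (1, 0), (1, 1), (1, 2)}
    (fun x => (rneg x.1, x.2)) (by decide) (by decide) (by decide) (by decide)
  have hs := card_fixed h (Equiv.prodComm Z3 Z3) {(0, 0), (0, 1), (0, 2), (1, 1), (1, 2), (2, 2)}
    (fun x => if x.1.val ≤ x.2.val then x else x.swap) (by decide) (by decide) (by decide) (by decide)
  have hne : Nat.card F ^ 5 ≠ Nat.card F ^ 6 := (Nat.pow_lt_pow_right hF (by norm_num)).ne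
  refine ⟨fun e => hne ?_, fun e => hne ?_, fun e => hne ?_⟩
  · exact hj.symm.trans ((key _ _ g e).trans ht)
  · exact hj.symm.trans ((key _ _ g e).trans hs)
  · set s := mU h (Equiv.prodComm Z3 Z3) (0 : J9 → Z3)
    have hss : s⁻¹ = s := by
      rw [mU_inv]
      congr 1
      funext j; simp
    refine hj.symm.trans ((key _ _ (s * g) ?_).trans ht)
    show s * g * jT h * (s * g)⁻¹ = tT h
    calc s * g * jT h * (s * g)⁻¹ = s * (g * jT h * g⁻¹) * s⁻¹ := by group
      _ = tT h := by rw [e]; nth_rewrite 1 [← hss]; group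

end CfsgLib.Geometric.SUNine.Two
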