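import Cfsg.Agent.Lib.Geometric.SUNine.Two.Involution

/-!
The shape of the labels of a Sylow `2`-subgroup of the normaliser over the field of four elements.
-/

set_option autoImplicit false
set_option linter.unusedSectionVars false
set_option maxRecDepth 4000

namespace CfsgLib.Geometric.SUNine.Two

open Matrix
open CfsgLib.Geometric.SLNine

variable {F : Type*} [Field F] {σ : F ≃+* F} {w : F}

local notation "Z3" => ZMod 3

/-- The quaternion group of order eight inside the linear maps of the plane, by images of the basis. -/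
def q8 : List (V3 × V3) :=
  [((1, 0), (0, 1)), ((0, 1), (2, 0)), ((2, 0), (0, 2)), ((0, 2), (1, 0)),
   ((1, 1), (1, 2)), ((2, 2), (2, 1)), ((2, 1), (1, 1)), ((1, 2), (2, 2))]

/-- A map of the plane is one of the eight. -/
def InQ (f : V3 → V3) : Prop := ∃ m ∈ q8, ∀ v, f v = lin m.1 m.2 v

lemma InQ.comp {f g : V3 → V3} (hf : InQ f) (hg : InQ g) : InQ (fun v => f (g v)) := by
  obtain ⟨m, hm, hf⟩ := hf
  obtain ⟨n, hn, hg⟩ := hg
  have key : ∀ m ∈ q8, ∀ n ∈ q8, ∃ k ∈ q8, lin m.1 m.2 n.1 = k.1 ∧ lin m.1 m.2 n.2 = k.2 := by decide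
  obtain ⟨k, hk, h1, h2⟩ := key m hm n hn
  refine ⟨k, hk, fun v => ?_⟩
  show f (g v) = _
  rw [hf, hg, ← h1, ← h2]
  ext <;> simp [lin] <;> ring

lemma inQ_id : InQ (fun v => v) :=
  ⟨((1, 0), (0, 1)), by decide, fun v => by revert v; decide⟩

lemma inQ_neg : InQ (fun v => -v) :=
  ⟨((2, 0), (0, 2)), by decide, fun v => by revert v; decide⟩

lemma InQ.four {f : V3 → V3} (hf : InQ f) (v : V3) : f (f (f (f v))) = v := by
  obtain ⟨m, hm, hf⟩ := hf
  simp only [hf]
  clear hf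
  revert v
  revert m
  decide

lemma InQ.involution {f : V3 → V3} (hf : InQ f) (h2 : ∀ v, f (f v) = v) :
    (∀ v, f v = v) ∨ ∀ v, f v = -v := by
  obtain ⟨m, hm, hf⟩ := hf
  simp only [hf] at h2 ⊢
  clear hf
  revert m
  decide

/-- Lifting the quaternion group. -/
lemma exists_lift_q8 (h : Four σ w) {f : V3 → V3} (hf : InQ f) :
    ∃ a ∈ UU (ZMod 3) σ, Commute a (mU h (Equiv.neg Z3) 0) ∧ ∀ v, lab3 h a v = f v := by
  obtain ⟨m, hm, hf⟩ := hf
  let L : Set (V3 × V3) := {m | ∃ a ∈ UU (ZMod 3) σ, Commute a (mU h (Equiv.neg Z3) 0) ∧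
    ∀ v, lab3 h a v = lin m.1 m.2 v}
  have hmul : ∀ m ∈ L, ∀ n ∈ L, ((lin m.1 m.2 n.1, lin m.1 m.2 n.2) : V3 × V3) ∈ L := by
    rintro m ⟨a, ha, ha1, ha2⟩ n ⟨b, hb, hb1, hb2⟩
    refine ⟨a * b, mul_mem ha hb, ha1.mul_left hb1, fun v => ?_⟩
    rw [lab3_mul h (UU_le_N3 h ha) (UU_le_N3 h hb), ha2, hb2]
    ext <;> simp [lin] <;> ring
  have hF : (((0, 1), (2, 0)) : V3 × V3) ∈ L :=
    ⟨fU h, fU_mem_UU h, fU_parity h, fun v => by
      rw [lab3_fU]
      revert v; decide⟩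
  have hG3 : (((2, 2), (2, 1)) : V3 × V3) ∈ L := by
    refine ⟨qU h * fU h * (qU h)⁻¹,
      mul_mem (mul_mem (qU_mem_UU h) (fU_mem_UU h)) (inv_mem (qU_mem_UU h)),
      ((qU_parity h).mul_left (fU_parity h)).mul_left (qU_parity h).inv_left, fun v => ?_⟩
    have hx : v = lab3 h (qU h) (v.1, v.2 + v.1) := by rw [lab3_qU]; simp
    conv_lhs => rw [hx]
    rw [← lab3_mul h (UU_le_N3 h (mul_mem (mul_mem (qU_mem_UU h) (fU_mem_UU h))
      (inv_mem (qU_mem_UU h)))) (qU_mem_N3 h), inv_mul_cancel_right,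
      lab3_mul h (qU_mem_N3 h) (fU_mem_N3 h), lab3_fU, lab3_qU]
    clear hx
    revert v; decide
  have hF2 : (((2, 0), (0, 2)) : V3 × V3) ∈ L := by
    have := hmul _ hF _ hF
    exact this
  have hF3 : (((0, 2), (1, 0)) : V3 × V3) ∈ L := by
    have := hmul _ hF2 _ hF
    exact this
  have hI : (((1, 0), (0, 1)) : V3 × V3) ∈ L := by
    have := hmul _ hF2 _ hF2
    exact this
  have hG : (((1, 1), (1, 2)) : V3 × V3) ∈ L := by
    have := hmul _ hF2 _ hG3
    exact this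
  have hFG : (((2, 1), (1, 1)) : V3 × V3) ∈ L := by
    have := hmul _ hF _ hG
    exact this
  have hGF : (((1, 2), (2, 2)) : V3 × V3) ∈ L := by
    have := hmul _ hG _ hF
    exact this
  have hmem : m ∈ L := by
    simp only [q8, List.mem_cons, List.not_mem_nil, or_false] at hm
    rcases hm with rfl | rfl | rfl | rfl | rfl | rfl | rfl | rfl
    exacts [hI, hF, hF2, hF3, hG, hG3, hFG, hGF]
  obtain ⟨a, ha, ha1, ha2⟩ := hmem
  exact ⟨a, ha, ha1, fun v => (ha2 v).trans (hf v).symm⟩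

/-- The label map is that of a member of the wreath product of two quaternion groups. -/
def InS (f : V9 → V9) : Prop :=
  ∃ A B, InQ A ∧ InQ B ∧ ((∀ v, f v = (A v.1, B v.2)) ∨ ∀ v, f v = (A v.2, B v.1))

lemma InS.comp {f g : V9 → V9} (hf : InS f) (hg : InS g) : InS (fun v => f (g v)) := by
  obtain ⟨A, B, hA, hB, hf⟩ := hf
  obtain ⟨C, D, hC, hD, hg⟩ := hg
  rcases hf with hf | hf <;> rcases hg with hg | hg
  · exact ⟨_, _, hA.comp hC, hB.comp hD, Or.inl fun v => by simp only [hf, hg]⟩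
  · exact ⟨_, _, hA.comp hC, hB.comp hD, Or.inr fun v => by simp only [hf, hg]⟩
  · exact ⟨_, _, hA.comp hD, hB.comp hC, Or.inr fun v => by simp only [hf, hg]⟩
  · exact ⟨_, _, hA.comp hD, hB.comp hC, Or.inl fun v => by simp only [hf, hg]⟩

lemma InS.eight {f : V9 → V9} (hf : InS f) (v : V9) : f (f (f (f (f (f (f (f v))))))) = v := by
  obtain ⟨A, B, hA, hB, hf | hf⟩ := hf
  · simp only [hf, hA.four, hB.four]
  · simp only [hf]
    exact Prod.ext ((hA.comp hB).four _) ((hB.comp hA).four _)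

set_option synthInstance.maxSize 2000 in
/-- The maps of the plane of determinant one whose order is a power of two lie in `q8`. -/
lemma mem_q8_or : ∀ p q : V3, p.1 * q.2 - p.2 * q.1 = 1 → ((p, q) : V3 × V3) ∈ q8 ∨
    ((∀ v, lin p q (lin p q (lin p q (lin p q (lin p q (lin p q v))))) = v) ∧
      ∃ v, lin p q (lin p q v) ≠ v) := by
  unfold q8
  decide

end CfsgLib.Geometric.SUNine.Two
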