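import Cfsg.Agent.Lib.Geometric.SUNine.Two.Quaternion

/-!
The Sylow `2`-subgroup of the normaliser over the field of four elements, its normaliser in `M`, and
the isolation of the parity involution.
-/

set_option autoImplicit false
set_option linter.unusedSectionVars false

namespace CfsgLib.Geometric.SUNine.Two

open Matrix
open CfsgLib.Geometric.SLNine

variable {F : Type*} [Field F] {σ : F ≃+* F} {w : F}

local notation "Z3" => ZMod 3

lemma lab_one (h : Four σ w) (v : V9) : lab h (1 : GL J9 F) v = v := by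
  rw [← zU_zero h]
  exact lab_zU h 0 v

lemma lab_pow (h : Four σ w) {g : GL J9 F} (hg : g ∈ N9 w) (n : ℕ) (v : V9) :
    lab h (g ^ n) v = (lab h g)^[n] v := by
  induction n generalizing v with
  | zero => rw [pow_zero, lab_one]; rfl
  | succ n ih => rw [pow_succ, lab_mul h (pow_mem hg n) hg, ih, Function.iterate_succ_apply]

lemma InS.inv (h : Four σ w) {g : GL J9 F} (hg : g ∈ N9 w) (hS : InS (lab h g)) :
    InS (lab h g⁻¹) := by
  have e : ∀ v, lab h g⁻¹ v = lab h g (lab h g (lab h g (lab h g (lab h g (lab h g (lab h g v)))))) :=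
    fun v => by
      conv_lhs => rw [← hS.eight v]
      exact lab_inv h hg _
  rw [funext e]
  exact hS.comp (hS.comp (hS.comp (hS.comp (hS.comp (hS.comp hS)))))

variable (h : Four σ w) (M : Subgroup (GL J9 F))

/-- Elements of the normaliser commuting with the parity whose labels lie in the `2`-group. -/
def PM : Subgroup M where
  carrier := {g | (g : GL J9 F) ∈ N9 w ∧ Commute (g : GL J9 F) (jT h) ∧ InS (lab h (g : GL J9 F))}
  one_mem' := ⟨one_mem _, Commute.one_left _, _, _, inQ_id, inQ_id, Or.inl fun v => by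
    rw [OneMemClass.coe_one, lab_one]⟩
  mul_mem' := by
    rintro a b ⟨ha, ha1, ha2⟩ ⟨hb, hb1, hb2⟩
    refine ⟨mul_mem ha hb, by simpa using ha1.mul_left hb1, ?_⟩
    rw [funext fun v => show lab h ((a * b : M) : GL J9 F) v = _ from lab_mul h ha hb v]
    exact ha2.comp hb2
  inv_mem' := by
    rintro a ⟨ha, ha1, ha2⟩
    exact ⟨inv_mem ha, by simpa using ha1.inv_left, InS.inv h ha ha2⟩

variable {M}

lemma PM_le : PM h M ≤ NM w M := fun _ hg => Subgroup.mem_subgroupOf.2 hg.1

lemma mem_ZM_of_lab {g : M} (hg : g ∈ PM h M) (hl : ∀ v, lab h (g : GL J9 F) v = v) :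
    g ∈ ZM h M := by
  obtain ⟨c, v, hv⟩ := mem_Rsub_of_lab h hg.1 hl
  refine Subgroup.mem_subgroupOf.2 ⟨c, ?_⟩
  have e := hg.2.1.eq
  have hcv : jT h * (zU h c * tU h v) * (jT h)⁻¹ = zU h c * tU h (-v) := by
    rw [← mul_assoc, ← zU_comm h c (jT h), mul_assoc (zU h c), mul_assoc (zU h c), (jT_mem h).2]
  rw [← hv, ← e, mul_inv_cancel_right, hv] at hcv
  have key : ∀ y : V3, y = -y → y = 0 := by decide
  have hvz := (zT_inj h hcv).2
  have : v = 0 := Prod.ext (key _ (congrArg Prod.fst hvz)) (key _ (congrArg Prod.snd hvz))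
  rw [hv, this, tU_zero, mul_one]

lemma cube_ZM {g : M} (hg : g ∈ ZM h M) : g ^ 3 = 1 := by
  obtain ⟨c, hc⟩ := Subgroup.mem_subgroupOf.1 hg
  refine cube_RM h (Subgroup.mem_subgroupOf.2 ⟨c, 0, ?_⟩)
  rw [hc, tU_zero, mul_one]

lemma pow_eight_mem {g : M} (hg : g ∈ PM h M) : g ^ 8 ∈ ZM h M := by
  refine mem_ZM_of_lab h ((PM h M).pow_mem hg 8) fun v => ?_
  rw [SubgroupClass.coe_pow, lab_pow h hg.1]
  exact hg.2.2.eight v

variable [Finite F]

/-- A Sylow `2`-subgroup of `PM`. -/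
noncomputable def SM (h : Four σ w) (M : Subgroup (GL J9 F)) : Subgroup M :=
  ((default : Sylow 2 (PM h M)) : Subgroup (PM h M)).map (PM h M).subtype

lemma SM_le : SM h M ≤ PM h M := Subgroup.map_subtype_le _

lemma SM_two : IsPGroup 2 (SM h M) := (default : Sylow 2 (PM h M)).isPGroup'.map _

lemma SM_max {T : Subgroup M} (hT : T ≤ PM h M) (hT2 : IsPGroup 2 T) (hST : SM h M ≤ T) :
    T = SM h M := by
  set P : Sylow 2 (PM h M) := default
  have h1 : (P : Subgroup (PM h M)) ≤ T.subgroupOf (PM h M) := fun x hx =>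
    Subgroup.mem_subgroupOf.2 (hST (Subgroup.mem_map_of_mem _ hx))
  have h2 := P.3 (hT2.of_equiv (Subgroup.subgroupOfEquivOfLe hT).symm) h1
  refine le_antisymm (fun x hx => ?_) hST
  exact ⟨⟨x, hT hx⟩, h2.le (Subgroup.mem_subgroupOf.2 hx), rfl⟩

lemma SM_eq_one {g : M} (hg : g ∈ SM h M) (hl : ∀ v, lab h (g : GL J9 F) v = v) : g = 1 := by
  obtain ⟨n, hn⟩ := SM_two h ⟨g, hg⟩
  refine eq_one_of_coprime_pow (Nat.Coprime.pow_left n (by norm_num : Nat.Coprime 2 3)) ?_
    (cube_ZM h (mem_ZM_of_lab h (SM_le h hg) hl))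
  simpa using congrArg Subtype.val hn

lemma SM_ext {g g' : M} (hg : g ∈ SM h M) (hg' : g' ∈ SM h M)
    (hl : ∀ v, lab h (g : GL J9 F) v = lab h (g' : GL J9 F) v) : g = g' := by
  refine (inv_mul_eq_one.1 (SM_eq_one h (mul_mem (inv_mem hg') hg) fun v => ?_)).symm
  rw [Subgroup.coe_mul, Subgroup.coe_inv, lab_mul h (inv_mem (SM_le h hg').1) (SM_le h hg).1, hl,
    lab_inv h (SM_le h hg').1]

/-- Every label map of `PM` is realised in the Sylow subgroup. -/
lemma exists_SM {g : M} (hg : g ∈ PM h M) :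
    ∃ s ∈ SM h M, ∀ v, lab h (s : GL J9 F) v = lab h (g : GL J9 F) v := by
  classical
  haveI : Fact (Nat.Prime 2) := ⟨Nat.prime_two⟩
  set P : Sylow 2 (PM h M) := default
  let φ : PM h M →* Equiv.Perm V9 := (T9_good h).act.comp
    { toFun := fun x => ⟨((x : M) : GL J9 F), x.2.1⟩
      map_one' := rfl
      map_mul' := fun _ _ => rfl }
  have hφ : ∀ (x : PM h M) v, φ x v = lab h ((x : M) : GL J9 F) v := fun x v => by
    rw [lab, dif_pos x.2.1]; rfl
  have hR : IsPGroup 2 φ.range := by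
    rintro ⟨_, x, rfl⟩
    refine ⟨3, Subtype.ext ?_⟩
    show φ x ^ 2 ^ 3 = 1
    rw [← map_pow]
    ext1 v
    rw [hφ, SubgroupClass.coe_pow, SubgroupClass.coe_pow, lab_pow h x.2.1]
    exact x.2.2.2.eight v
  have htop : (P : Subgroup (PM h M)).map φ.rangeRestrict = ⊤ := by
    rw [← Subgroup.index_eq_one]
    obtain ⟨n, hn⟩ := hR.index ((P : Subgroup (PM h M)).map φ.rangeRestrict)
    have hd := Subgroup.index_map_dvd (P : Subgroup (PM h M)) φ.rangeRestrict_surjective
    rw [hn] at hd ⊢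
    rcases n with _ | n
    · rfl
    · exact absurd ((dvd_pow_self 2 (Nat.succ_ne_zero n)).trans hd) P.not_dvd_index
  obtain ⟨s, hs, hse⟩ := htop.ge (Subgroup.mem_top (φ.rangeRestrict ⟨g, hg⟩))
  refine ⟨s.1, Subgroup.mem_map_of_mem _ hs, fun v => ?_⟩
  have := congrArg (fun x : φ.range => (x : Equiv.Perm V9) v) hse
  simpa [hφ] using this

lemma mem_SM_of_sq {g : M} (hg : g ∈ PM h M) (h2 : g * g = 1) : g ∈ SM h M := by
  obtain ⟨s, hs, hsl⟩ := exists_SM h hg
  have hss : s * s = 1 := SM_eq_one h (mul_mem hs hs) fun v => by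
    rw [Subgroup.coe_mul, lab_mul h (SM_le h hs).1 (SM_le h hs).1, hsl, hsl,
      ← lab_mul h hg.1 hg.1, ← Subgroup.coe_mul, h2, OneMemClass.coe_one, lab_one]
  have hz : s⁻¹ * g ∈ ZM h M := mem_ZM_of_lab h (mul_mem (inv_mem (SM_le h hs)) hg) fun v => by
    rw [Subgroup.coe_mul, Subgroup.coe_inv, lab_mul h (inv_mem (SM_le h hs).1) hg.1, ← hsl,
      lab_inv h (SM_le h hs).1]
  set z := s⁻¹ * g with hzdef
  have hgz : g = s * z := by rw [hzdef, mul_inv_cancel_left]
  have hzc : Commute s z := Subgroup.mem_center_iff.1 (mem_center_of_scal h hz) s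
  have hz2 : z ^ 2 = 1 := by
    have : (s * z) ^ 2 = 1 := by rw [pow_two, ← hgz]; exact h2
    rwa [hzc.mul_pow, pow_two s, hss, one_mul] at this
  rw [hgz, eq_one_of_coprime_pow (by norm_num : Nat.Coprime 2 3) hz2 (cube_ZM h hz), mul_one]
  exact hs

lemma exists_pair (H : Ctx h M) {A B : V3 → V3} (hA : InQ A) (hB : InQ B) :
    ∃ g ∈ PM h M, ∀ v, lab h (g : GL J9 F) v = (A v.1, B v.2) := by
  obtain ⟨a, ha, ha1, ha2⟩ := exists_lift_q8 h hA
  obtain ⟨b, hb, hb1, hb2⟩ := exists_lift_q8 h hB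
  obtain ⟨hk, hl⟩ := kron_mem_N h ha hb
  have hlab : ∀ v, lab h (kronHom (a, b)) v = (A v.1, B v.2) := fun v => by rw [hl, ha2, hb2]
  refine ⟨⟨kronHom (a, b), H.norm_le hk⟩, ⟨hk.1, ?_, A, B, hA, hB, Or.inl hlab⟩, hlab⟩
  rw [jT_eq_kron]
  exact (show Commute (a, b) (mU h (Equiv.neg Z3) 0, mU h (Equiv.neg Z3) 0) from
    Prod.ext ha1.eq hb1.eq).map kronHom

/-- The parity of both factors in `M`. -/
def jM (H : Ctx h M) : M := ⟨jT h, H.norm_le (jT_mem h).1⟩

/-- The parity of the first factor in `M`. -/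
def tM (H : Ctx h M) : M := ⟨tT h, H.norm_le (tT_mem h).1⟩

/-- The interchange of the factors in `M`. -/
def sM (H : Ctx h M) : M := ⟨sU h, H.norm_le (sU_mem h).1⟩

lemma mU_sq (π : Equiv.Perm J9) (hπ : π * π = 1) : mU h π 0 * mU h π 0 = 1 := by
  rw [mU_mul, hπ, ← zU_zero h, zU]
  congr 1

lemma specials (H : Ctx h M) :
    jM h H ∈ SM h M ∧ tM h H ∈ SM h M ∧ sM h H ∈ SM h M ∧
      orderOf (jM h H) = 2 ∧
      sM h H * tM h H * (sM h H)⁻¹ ∈ SM h M ∧
      (∀ v, lab h ((sM h H * tM h H * (sM h H)⁻¹ : M) : GL J9 F) v = (v.1, -v.2)) ∧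
      ((sM h H * tM h H * (sM h H)⁻¹ : M) : GL J9 F) =
        mU h (Equiv.prodComm Z3 Z3) 0 * tT h * mU h (Equiv.prodComm Z3 Z3) 0 := by
  have hperm : ∀ π ρ : Equiv.Perm J9, π * ρ = ρ * π → Commute (mU h π 0) (mU h ρ 0) := by
    intro π ρ e
    show mU h π 0 * mU h ρ 0 = mU h ρ 0 * mU h π 0
    rw [mU_mul, mU_mul, e]
    congr 1
  have hJ : jM h H ∈ SM h M := mem_SM_of_sq h
    ⟨(jT_mem h).1.1, Commute.refl _, _, _, inQ_neg, inQ_neg, Or.inl (lab_jT h)⟩
    (Subtype.ext (mU_sq h jPerm (by decide)))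
  have hT : tM h H ∈ SM h M := mem_SM_of_sq h
    ⟨(tT_mem h).1.1, hperm _ _ (by decide), _, _, inQ_neg, inQ_id, Or.inl (lab_tT h)⟩
    (Subtype.ext (mU_sq h tPerm (by decide)))
  have hS : sM h H ∈ SM h M := mem_SM_of_sq h
    ⟨(sU_mem h).1.1, hperm _ _ (by decide), _, _, inQ_id, inQ_id, Or.inr (sU_mem h).2⟩
    (Subtype.ext (mU_sq h (Equiv.prodComm Z3 Z3) (by decide)))
  have hinv : (sU h)⁻¹ = sU h := inv_eq_of_mul_eq_one_right (mU_sq h _ (by decide))
  refine ⟨hJ, hT, hS, orderOf_eq_prime (by rw [pow_two]; exact Subtype.ext (mU_sq h jPerm (by decide))) ?_,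
    mul_mem (mul_mem hS hT) (inv_mem hS), fun v => ?_, ?_⟩
  · intro e
    have e' := congrArg (fun x : M => lab h (x : GL J9 F) ((1, 0), 0)) e
    simp only [jM, lab_jT, OneMemClass.coe_one, lab_one] at e'
    exact absurd e' (by decide)
  · show lab h (sU h * tT h * (sU h)⁻¹) v = _
    rw [hinv, lab_mul h (mul_mem (sU_mem h).1.1 (tT_mem h).1.1) (sU_mem h).1.1,
      lab_mul h (sU_mem h).1.1 (tT_mem h).1.1, (sU_mem h).2, lab_tT, (sU_mem h).2]
  · show sU h * tT h * (sU h)⁻¹ = _
    rw [hinv]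
    rfl

/-- An involution in the Sylow subgroup other than the parity is conjugate to one of three. -/
lemma involution_cases (H : Ctx h M) {x : M} (hx : x ∈ SM h M) (hx2 : x * x = 1) (hx1 : x ≠ 1) :
    x = jM h H ∨ x = tM h H ∨ x = sM h H * tM h H * (sM h H)⁻¹ ∨
      ∃ l : M, x = l * sM h H * l⁻¹ := by
  obtain ⟨hJ, hT, hS, -, hT', hlT', -⟩ := specials h H
  obtain ⟨A, B, hA, hB, hl⟩ := (SM_le h hx).2.2
  have hsq : ∀ v, lab h (x : GL J9 F) (lab h (x : GL J9 F) v) = v := fun v => by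
    rw [← lab_mul h (SM_le h hx).1 (SM_le h hx).1, ← Subgroup.coe_mul, hx2, OneMemClass.coe_one,
      lab_one]
  rcases hl with hl | hl
  · have hA2 : ∀ v, A (A v) = v := fun v => by
      simpa [hl] using congrArg Prod.fst (hsq (v, 0))
    have hB2 : ∀ v, B (B v) = v := fun v => by
      simpa [hl] using congrArg Prod.snd (hsq (0, v))
    rcases hA.involution hA2 with a | a <;> rcases hB.involution hB2 with b | b
    · exact absurd (SM_eq_one h hx fun v => by rw [hl, a, b]) hx1
    · exact Or.inr (Or.inr (Or.inl (SM_ext h hx hT' fun v => by rw [hl, hlT', a, b])))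
    · refine Or.inr (Or.inl (SM_ext h hx hT fun v => ?_))
      show _ = lab h (tT h) v
      rw [hl, lab_tT, a, b]
    · refine Or.inl (SM_ext h hx hJ fun v => ?_)
      show _ = lab h (jT h) v
      rw [hl, lab_jT, a, b]
      rfl
  · have hAB : ∀ v, A (B v) = v := fun v => by
      simpa [hl] using congrArg Prod.fst (hsq (v, 0))
    obtain ⟨l, hlP, hll⟩ := exists_pair h H hA inQ_id
    refine Or.inr (Or.inr (Or.inr ⟨l, SM_ext h hx (mem_SM_of_sq h
      (mul_mem (mul_mem hlP (SM_le h hS)) (inv_mem hlP)) ?_) fun v => ?_⟩))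
    · have hs2 : sM h H * sM h H = 1 := Subtype.ext (mU_sq h (Equiv.prodComm Z3 Z3) (by decide))
      calc l * sM h H * l⁻¹ * (l * sM h H * l⁻¹) = l * (sM h H * sM h H) * l⁻¹ := by group
        _ = 1 := by rw [hs2, mul_one, mul_inv_cancel]
    · set y := lab h ((l : GL J9 F)⁻¹) v with hy
      have e1 := lab_inv h (inv_mem hlP.1) v
      rw [inv_inv, ← hy, hll] at e1
      rw [Subgroup.coe_mul, Subgroup.coe_mul, Subgroup.coe_inv,
        lab_mul h (mul_mem hlP.1 (SM_le h hS).1) (inv_mem hlP.1),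
        lab_mul h hlP.1 (SM_le h hS).1, ← hy]
      show _ = lab h (l : GL J9 F) (lab h (sU h) y)
      rw [(sU_mem h).2, hll, hl, ← e1]
      refine Prod.ext rfl ?_
      show B (A y.1) = y.1
      exact hAB' hA hB hAB y.1
where
  hAB' {A B : V3 → V3} (hA : InQ A) (hB : InQ B) (hAB : ∀ v, A (B v) = v) (v : V3) : B (A v) = v := by
    have hi : Function.Injective A := fun a b e => by rw [← hA.four a, e, hA.four]
    exact hi (hAB (A v))

/-- Isolation of the parity. -/
lemma isolated (H : Ctx h M) (g : M) (hg : g * jM h H * g⁻¹ ∈ SM h M) :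
    g * jM h H * g⁻¹ = jM h H := by
  obtain ⟨-, -, -, hJ2, -, -, hT'⟩ := specials h H
  have hcard : 1 < Nat.card F := Finite.one_lt_card
  set x := g * jM h H * g⁻¹ with hx
  have hxx : x * x = 1 := by
    have : jM h H * jM h H = 1 := by rw [← pow_two]; simpa [hJ2] using pow_orderOf_eq_one (jM h H)
    rw [hx]
    calc g * jM h H * g⁻¹ * (g * jM h H * g⁻¹) = g * (jM h H * jM h H) * g⁻¹ := by group
      _ = 1 := by rw [this, mul_one, mul_inv_cancel]
  have hx1 : x ≠ 1 := fun e => by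
    have : jM h H = 1 := by
      calc jM h H = g⁻¹ * x * g := by rw [hx]; group
        _ = 1 := by rw [e, mul_one, inv_mul_cancel]
    rw [this, orderOf_one] at hJ2
    norm_num at hJ2
  have hco : (x : GL J9 F) = (g : GL J9 F) * jT h * (g : GL J9 F)⁻¹ := rfl
  rcases involution_cases h H hg hxx hx1 with e | e | e | ⟨l, e⟩
  · exact e
  · exact absurd (hco.symm.trans (congrArg Subtype.val e)) (not_conj h hcard g).1
  · exact absurd (hco.symm.trans ((congrArg Subtype.val e).trans hT')) (not_conj h hcard g).2.2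
  · refine absurd ?_ (not_conj h hcard ((l : GL J9 F)⁻¹ * g)).2.1
    have e' := hco.symm.trans (congrArg Subtype.val e)
    simp only [Subgroup.coe_mul, Subgroup.coe_inv] at e'
    calc (l : GL J9 F)⁻¹ * g * jT h * ((l : GL J9 F)⁻¹ * g)⁻¹
        = (l : GL J9 F)⁻¹ * ((g : GL J9 F) * jT h * (g : GL J9 F)⁻¹) * l := by group
      _ = sU h := by rw [e']; show _ * (_ * sU h * _) * _ = _; group

/-- The normaliser of the Sylow subgroup permutes the two parities of single factors. -/
lemma normalizer_char (H : Ctx h M) (g : M) (hg : g ∈ Subgroup.normalizer (SM h M : Set M)) :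
    g * tM h H * g⁻¹ = tM h H ∨
      g * tM h H * g⁻¹ = sM h H * tM h H * (sM h H)⁻¹ := by
  classical
  obtain ⟨hJ, hT, hS, -, -, -, -⟩ := specials h H
  set t := tM h H
  set x := g * t * g⁻¹ with hx
  have hxS : x ∈ SM h M := (Subgroup.mem_normalizer_iff.1 hg t).1 hT
  have ht2 : t * t = 1 := Subtype.ext (mU_sq h tPerm (by decide))
  have ht1 : t ≠ 1 := fun e => by
    have e' := congrArg (fun y : M => lab h (y : GL J9 F) ((1, 0), 0)) e
    simp only [t, tM, lab_tT, OneMemClass.coe_one, lab_one] at e'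
    exact absurd e' (by decide)
  have hx2 : x * x = 1 := by
    rw [hx]
    calc g * t * g⁻¹ * (g * t * g⁻¹) = g * (t * t) * g⁻¹ := by group
      _ = 1 := by rw [ht2, mul_one, mul_inv_cancel]
  have hx1 : x ≠ 1 := fun e => ht1 (by
    calc t = g⁻¹ * x * g := by rw [hx]; group
      _ = 1 := by rw [e, mul_one, inv_mul_cancel])
  have hxJ : x ≠ jM h H := fun e => by
    refine (not_conj h Finite.one_lt_card (g : GL J9 F)⁻¹).1 ?_
    have e' : (g : GL J9 F) * tT h * (g : GL J9 F)⁻¹ = jT h := congrArg Subtype.val e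
    rw [← e']
    group
  rcases involution_cases h H hxS hx2 hx1 with e | e | e | ⟨l, -⟩
  · exact absurd e hxJ
  · exact Or.inl e
  · exact Or.inr e
  · -- the centraliser in the Sylow subgroup is too small
    obtain ⟨A, B, hA, hB, hl | hl⟩ := (SM_le h hxS).2.2
    · have hsq : ∀ v, lab h (x : GL J9 F) (lab h (x : GL J9 F) v) = v := fun v => by
        rw [← lab_mul h (SM_le h hxS).1 (SM_le h hxS).1, ← Subgroup.coe_mul, hx2,
          OneMemClass.coe_one, lab_one]
      obtain ⟨-, -, -, -, hT', hlT', -⟩ := specials h H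
      rcases hA.involution (fun v => by simpa [hl] using congrArg Prod.fst (hsq (v, 0))) with a | a <;>
        rcases hB.involution (fun v => by simpa [hl] using congrArg Prod.snd (hsq (0, v))) with b | b
      · exact absurd (SM_eq_one h hxS fun v => by rw [hl, a, b]) hx1
      · exact Or.inr (SM_ext h hxS hT' fun v => by rw [hl, hlT', a, b])
      · exact Or.inl (SM_ext h hxS hT fun v => by
          show _ = lab h (tT h) v
          rw [hl, lab_tT, a, b])
      · exact absurd (SM_ext h hxS hJ fun v => by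
          show _ = lab h (jT h) v
          rw [hl, lab_jT, a, b]; rfl) hxJ
    exfalso
    let Q := {m : V3 × V3 // m ∈ q8}
    have hcen : ∀ p : Q × Q, ∃ s : M, (s ∈ SM h M ∧ s * t = t * s) ∧
        ∀ v, lab h (s : GL J9 F) v = (lin p.1.1.1 p.1.1.2 v.1, lin p.2.1.1 p.2.1.2 v.2) := by
      intro p
      obtain ⟨y, hy, hyl⟩ := exists_pair h H (A := fun v => lin p.1.1.1 p.1.1.2 v)
        (B := fun v => lin p.2.1.1 p.2.1.2 v) ⟨p.1.1, p.1.2, fun _ => rfl⟩ ⟨p.2.1, p.2.2, fun _ => rfl⟩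
      obtain ⟨s, hs, hsl⟩ := exists_SM h hy
      refine ⟨s, ⟨hs, SM_ext h (mul_mem hs hT) (mul_mem hT hs) fun v => ?_⟩, fun v => (hsl v).trans (hyl v)⟩
      rw [Subgroup.coe_mul, Subgroup.coe_mul, lab_mul h (SM_le h hs).1 (SM_le h hT).1,
        lab_mul h (SM_le h hT).1 (SM_le h hs).1]
      show lab h (s : GL J9 F) (lab h (tT h) v) = lab h (tT h) (lab h (s : GL J9 F) v)
      rw [lab_tT, lab_tT, hsl, hsl, hyl, hyl]
      refine Prod.ext ?_ rfl
      simp [lin]
      abel
    choose f hf hfl using hcen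
    let W := {y : M // y ∈ SM h M ∧ y * x = x * y}
    let G₁ : Q × Q → W := fun p => ⟨g * f p * g⁻¹, (Subgroup.mem_normalizer_iff.1 hg _).1 (hf p).1, by
      rw [hx]
      calc g * f p * g⁻¹ * (g * t * g⁻¹) = g * (f p * t) * g⁻¹ := by group
        _ = g * t * g⁻¹ * (g * f p * g⁻¹) := by rw [(hf p).2]; group⟩
    have hG₁ : Function.Injective G₁ := fun p q e => by
      have e' : f p = f q := by
        have := congrArg Subtype.val e
        exact mul_left_cancel (mul_right_cancel this)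
      have hv : ∀ v : V9, (lin p.1.1.1 p.1.1.2 v.1, lin p.2.1.1 p.2.1.2 v.2) =
          ((lin q.1.1.1 q.1.1.2 v.1, lin q.2.1.1 q.2.1.2 v.2) : V9) := fun v => by
        rw [← hfl, ← hfl, e']
      have h1 := hv ((1, 0), (1, 0))
      have h2 := hv ((0, 1), (0, 1))
      simp [lin] at h1 h2
      exact Prod.ext (Subtype.ext (Prod.ext h1.1 h2.1)) (Subtype.ext (Prod.ext h1.2 h2.2))
    let G₂ : W → Bool × Q → Prop := fun y p =>
      (lab h (y.1 : GL J9 F) ((1, 0), 0), lab h (y.1 : GL J9 F) ((0, 1), 0)) =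
        if p.1 then (((p.2.1.1, 0), (p.2.1.2, 0)) : V9 × V9) else ((0, p.2.1.1), (0, p.2.1.2))
    have hex : ∀ y : W, ∃ p, G₂ y p := by
      intro y
      obtain ⟨C, D, hC, hD, e | e⟩ := (SM_le h y.2.1).2.2
      · obtain ⟨m, hm, hCm⟩ := hC
        refine ⟨(true, ⟨m, hm⟩), ?_⟩
        obtain ⟨n, -, hDn⟩ := hD
        simp [G₂, e, hCm, hDn, lin]
      · obtain ⟨m, hm, hDm⟩ := hD
        refine ⟨(false, ⟨m, hm⟩), ?_⟩
        obtain ⟨n, -, hCn⟩ := hC
        simp [G₂, e, hDm, hCn, lin]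
    choose φ hφ using hex
    have hφi : Function.Injective φ := by
      intro y z e
      have h12 := (hφ y).trans ((congrArg (fun p : Bool × Q =>
        if p.1 then (((p.2.1.1, 0), (p.2.1.2, 0)) : V9 × V9) else ((0, p.2.1.1), (0, p.2.1.2))) e).trans
          (hφ z).symm)
      have hfirst : ∀ v : V3, lab h (y.1 : GL J9 F) (v, 0) = lab h (z.1 : GL J9 F) (v, 0) := by
        intro v
        have e1 := congrArg Prod.fst h12
        have e2 := congrArg Prod.snd h12
        simp only at e1 e2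
        have hv : ((v, 0) : V9) = v.1.val • ((1, 0), 0) + v.2.val • ((0, 1), 0) := by
          simp [Prod.ext_iff]
        let fy : V9 →+ V9 := AddMonoidHom.mk' (lab h (y.1 : GL J9 F)) (lab_add h (SM_le h y.2.1).1)
        let fz : V9 →+ V9 := AddMonoidHom.mk' (lab h (z.1 : GL J9 F)) (lab_add h (SM_le h z.2.1).1)
        show fy _ = fz _
        rw [hv, map_add, map_add, map_nsmul, map_nsmul, map_nsmul, map_nsmul]
        exact congrArg₂ (fun a b => v.1.val • a + v.2.val • b) e1 e2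
      refine Subtype.ext (SM_ext h y.2.1 z.2.1 fun v => ?_)
      obtain ⟨a, b⟩ := v
      have hcomm : ∀ (u : W) (c : V3), lab h (u.1 : GL J9 F) (0, B c) =
          lab h (x : GL J9 F) (lab h (u.1 : GL J9 F) (c, 0)) := fun u c => by
        have e0 : lab h (x : GL J9 F) (c, 0) = (0, B c) := by
          rw [hl]
          obtain ⟨m, -, hm⟩ := hA
          simp [hm, lin]
        rw [← e0, ← lab_mul h (SM_le h u.2.1).1 (SM_le h hxS).1,
          ← lab_mul h (SM_le h hxS).1 (SM_le h u.2.1).1, ← Subgroup.coe_mul, ← Subgroup.coe_mul, u.2.2]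
      obtain ⟨c, rfl⟩ : ∃ c, B c = b := ⟨B (B (B b)), hB.four b⟩
      rw [show ((a, B c) : V9) = (a, 0) + (0, B c) from by simp, lab_add h (SM_le h y.2.1).1,
        lab_add h (SM_le h z.2.1).1, hfirst, hcomm, hcomm, hfirst]
    have h1 := Nat.card_le_card_of_injective G₁ hG₁
    have h2 := Nat.card_le_card_of_injective φ hφi
    have hQ : Nat.card Q = 8 := by rw [Nat.card_eq_fintype_card]; rfl
    rw [Nat.card_prod, hQ] at h1
    rw [Nat.card_prod, hQ, Nat.card_eq_fintype_card (α := Bool), Fintype.card_bool] at h2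
    omega

/-- The Sylow subgroup is a largest `2`-subgroup of the normaliser. -/
lemma SM_maximal (H : Ctx h M) (T : Subgroup M) (hST : SM h M ≤ T) (hTN : T ≤ NM w M)
    (hT2 : IsPGroup 2 T) : T = SM h M := by
  haveI : Fact (Nat.Prime 2) := ⟨Nat.prime_two⟩
  obtain ⟨hJ, hT, hS, -, -, hlT', -⟩ := specials h H
  refine le_antisymm ?_ hST
  by_contra hne
  obtain ⟨g, hgT, hgS, hgn⟩ := exists_normalizing_outside hT2 hST hne
  -- adjust `g` to commute with `t`
  obtain ⟨g', hg'T, hg'S, hg'n, hg't⟩ : ∃ g' ∈ T, g' ∉ SM h M ∧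
      g' ∈ Subgroup.normalizer (SM h M : Set M) ∧ g' * tM h H = tM h H * g' := by
    rcases normalizer_char h H g hgn with e | e
    · exact ⟨g, hgT, hgS, hgn, mul_inv_eq_iff_eq_mul.1 e⟩
    · refine ⟨(sM h H)⁻¹ * g, mul_mem (inv_mem (hST hS)) hgT, fun e' => hgS ?_,
        mul_mem (inv_mem (Subgroup.le_normalizer hS)) hgn, ?_⟩
      · simpa using mul_mem hS e'
      · calc (sM h H)⁻¹ * g * tM h H = (sM h H)⁻¹ * (g * tM h H * g⁻¹) * g := by group
          _ = tM h H * ((sM h H)⁻¹ * g) := by rw [e]; group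
  have hgN : (g' : GL J9 F) ∈ N9 w := Subgroup.mem_subgroupOf.1 (hTN hg'T)
  have hJc : g' * jM h H = jM h H * g' := by
    set t' := sM h H * tM h H * (sM h H)⁻¹
    have hJe : tM h H * t' = jM h H := SM_ext h (mul_mem hT (mul_mem (mul_mem hS hT) (inv_mem hS))) hJ
      fun v => by
        rw [Subgroup.coe_mul, lab_mul h (SM_le h hT).1
          (SM_le h (mul_mem (mul_mem hS hT) (inv_mem hS))).1]
        show lab h (tT h) _ = lab h (jT h) v
        rw [hlT', lab_tT, lab_jT]
        rfl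
    have ht' : g' * t' = t' * g' := by
      have hn2 : (sM h H)⁻¹ * g' * sM h H ∈ Subgroup.normalizer (SM h M : Set M) :=
        mul_mem (mul_mem (inv_mem (Subgroup.le_normalizer hS)) hg'n) (Subgroup.le_normalizer hS)
      rcases normalizer_char h H _ hn2 with e | e
      · calc g' * t' = sM h H * ((sM h H)⁻¹ * g' * sM h H * tM h H *
              ((sM h H)⁻¹ * g' * sM h H)⁻¹) * (sM h H)⁻¹ * g' := by simp only [t']; group
          _ = t' * g' := by rw [e]
      · exfalso
        have hs2 : sM h H * sM h H = 1 := Subtype.ext (mU_sq h (Equiv.prodComm Z3 Z3) (by decide))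
        have hsi : (sM h H)⁻¹ = sM h H := inv_eq_of_mul_eq_one_right hs2
        have hgt' : g' * t' * g'⁻¹ = tM h H := by
          calc g' * t' * g'⁻¹ = sM h H * ((sM h H)⁻¹ * g' * sM h H * tM h H *
                ((sM h H)⁻¹ * g' * sM h H)⁻¹) * (sM h H)⁻¹ := by simp only [t']; group
            _ = tM h H := by
                rw [e, hsi]
                calc sM h H * (sM h H * tM h H * sM h H) * sM h H
                    = (sM h H * sM h H) * tM h H * (sM h H * sM h H) := by group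
                  _ = tM h H := by rw [hs2, one_mul, mul_one]
        have : t' = tM h H := by
          calc t' = g'⁻¹ * (g' * t' * g'⁻¹) * g' := by group
            _ = tM h H := by rw [hgt', mul_assoc, ← hg't]; group
        have e' := congrArg (fun y : M => lab h (y : GL J9 F) ((1, 0), 0)) this
        simp only [t'] at e'
        rw [hlT'] at e'
        simp only [tM, lab_tT] at e'
        exact absurd e' (by decide)
    rw [← hJe, ← mul_assoc, hg't, mul_assoc, ht', ← mul_assoc]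
  -- its label lies in the `2`-group
  obtain ⟨n, hn⟩ := hT2 ⟨g', hg'T⟩
  have hn' : (g' : GL J9 F) ^ 2 ^ n = 1 := by
    simpa using congrArg (fun y : T => ((y : M) : GL J9 F)) hn
  have hc : Commute (g' : GL J9 F) (tT h) := congrArg Subtype.val hg't
  have hsplit := fun v => lab_split h hgN hc v
  set A : V3 → V3 := fun v => (lab h (g' : GL J9 F) (v, 0)).1 with hAdef
  set B : V3 → V3 := fun v => (lab h (g' : GL J9 F) (0, v)).2 with hBdef
  have hlab : ∀ v, lab h (g' : GL J9 F) v = (A v.1, B v.2) := fun v => (hsplit v).1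
  have hiter : ∀ k v, (lab h (g' : GL J9 F))^[k] v = (A^[k] v.1, B^[k] v.2) := by
    intro k
    induction k with
    | zero => intro v; rfl
    | succ k ih =>
      intro v
      rw [Function.iterate_succ_apply, Function.iterate_succ_apply, Function.iterate_succ_apply, hlab,
        ih]
  have hper : ∀ v : V9, A^[2 ^ n] v.1 = v.1 ∧ B^[2 ^ n] v.2 = v.2 := fun v => by
    have := hiter (2 ^ n) v
    rw [← lab_pow h hgN, hn', lab_one] at this
    exact ⟨(congrArg Prod.fst this).symm, (congrArg Prod.snd this).symm⟩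
  have hinQ : ∀ C : V3 → V3, (∀ v, C v = lin (C (1, 0)) (C (0, 1)) v) →
      (C (1, 0)).1 * (C (0, 1)).2 - (C (1, 0)).2 * (C (0, 1)).1 = 1 →
      (∀ v, C^[2 ^ n] v = v) → InQ C := by
    intro C hlin hdet hp
    rcases mem_q8_or _ _ hdet with e | ⟨e, v, hv⟩
    · exact ⟨_, e, hlin⟩
    · exfalso
      rw [← hlin, ← hlin] at hv
      refine hv ?_
      have h6 : ∀ v, C^[6] v = v := fun v => by
        simp only [Function.iterate_succ_apply', Function.iterate_zero_apply]
        calc C (C (C (C (C (C v))))) = _ := by simp only [← hlin]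
          _ = v := e v
      have hg : Function.IsPeriodicPt C (Nat.gcd (2 ^ n) 6) v :=
        Function.IsPeriodicPt.gcd (hp v) (h6 v)
      have hd : Nat.gcd (2 ^ n) 6 ∣ 2 := by
        have h3 : Nat.Coprime (Nat.gcd (2 ^ n) 6) 3 :=
          (Nat.Coprime.pow_left n (by norm_num : Nat.Coprime 2 3)).coprime_dvd_left
            (Nat.gcd_dvd_left _ _)
        exact h3.dvd_of_dvd_mul_right (show Nat.gcd (2 ^ n) 6 ∣ 2 * 3 from Nat.gcd_dvd_right _ _)
      exact hg.trans_dvd hd
  have hadd := lab_add h hgN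
  have hlinA : ∀ v, A v = lin (A (1, 0)) (A (0, 1)) v := by
    let f : V3 →+ V3 := AddMonoidHom.mk' A fun u v => by
      simp only [hAdef]; rw [← Prod.fst_add, ← hadd]; simp
    intro v
    show f v = lin (f (1, 0)) (f (0, 1)) v
    rw [lin, ← (f.toZModLinearMap 3).map_smul v.1 (1, 0) |> fun e => (show f (v.1 • (1, 0)) = v.1 • f (1, 0) from e),
      show v.2 • f (0, 1) = f (v.2 • (0, 1)) from ((f.toZModLinearMap 3).map_smul v.2 (0, 1)).symm,
      ← map_add]
    congr 1
    simp [Prod.ext_iff]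
  have hlinB : ∀ v, B v = lin (B (1, 0)) (B (0, 1)) v := by
    let f : V3 →+ V3 := AddMonoidHom.mk' B fun u v => by
      simp only [hBdef]; rw [← Prod.snd_add, ← hadd]; simp
    intro v
    show f v = lin (f (1, 0)) (f (0, 1)) v
    rw [lin, show v.1 • f (1, 0) = f (v.1 • (1, 0)) from ((f.toZModLinearMap 3).map_smul v.1 (1, 0)).symm,
      show v.2 • f (0, 1) = f (v.2 • (0, 1)) from ((f.toZModLinearMap 3).map_smul v.2 (0, 1)).symm,
      ← map_add]
    congr 1
    simp [Prod.ext_iff]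
  have hdA : (A (1, 0)).1 * (A (0, 1)).2 - (A (1, 0)).2 * (A (0, 1)).1 = 1 := by
    have := lab_B9 h hgN ((1, 0), 0) ((0, 1), 0)
    rw [hlab, hlab] at this
    simp [B9, B3, hlinB 0, lin] at this
    linear_combination -this
  have hdB : (B (1, 0)).1 * (B (0, 1)).2 - (B (1, 0)).2 * (B (0, 1)).1 = 1 := by
    have := lab_B9 h hgN (0, (1, 0)) (0, (0, 1))
    rw [hlab, hlab] at this
    simp [B9, B3, hlinA 0, lin] at this
    linear_combination -this
  have hg'P : g' ∈ PM h M := ⟨hgN, congrArg Subtype.val hJc, A, B,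
    hinQ A hlinA hdA (fun v => (hper (v, 0)).1), hinQ B hlinB hdB (fun v => (hper (0, v)).2),
    Or.inl hlab⟩
  refine hg'S ?_
  rw [← SM_max h (T := SM h M ⊔ Subgroup.zpowers g')
    (sup_le (SM_le h) (Subgroup.zpowers_le.2 hg'P))
    (hT2.to_le (sup_le hST (Subgroup.zpowers_le.2 hg'T))) le_sup_left]
  exact Subgroup.mem_sup_right (Subgroup.mem_zpowers g')

end CfsgLib.Geometric.SUNine.Two
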